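import Mathlib
import Cfsg.Prelude.Def_HallClasses
import Cfsg.Agent.Lib.Helper13.HSDefs

/-!
# Hall subgroups of alternating groups: shared definitions (project HALL-ALT, S2538/S2535/S2534)

Built on helper13's project HALL-SYM (`Cfsg.Agent.Lib.Helper13.HS`: `restr`, `A1`, `A2`, `Cc`, `Cd`,
`classify`).
-/

set_option autoImplicit false

namespace Cfsg.Agent.Lib.Helper45.HA

open Equiv

/-- the alternating group of a finite type, without instance arguments -/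
noncomputable def altG (Ω : Type*) [Finite Ω] : Subgroup (Perm Ω) :=
  @alternatingGroup Ω (Fintype.ofFinite Ω) (Classical.decEq Ω)

theorem altG_eq (Ω : Type*) [Fintype Ω] [DecidableEq Ω] : altG Ω = alternatingGroup Ω := by
  unfold altG
  congr <;> exact Subsingleton.elim _ _

instance altG_normal (Ω : Type*) [Finite Ω] : (altG Ω).Normal := by
  unfold altG
  infer_instance

theorem mem_altG (Ω : Type*) [Fintype Ω] [DecidableEq Ω] (σ : Perm Ω) :
    σ ∈ altG Ω ↔ Equiv.Perm.sign σ = 1 := by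
  rw [altG_eq, Equiv.Perm.mem_alternatingGroup]

/-- the permutations preserving `s` whose restrictions to `s` and `sᶜ` lie in `X` and `Y` -/
def prodSub {Ω : Type*} (s : Set Ω) (X : Subgroup (Perm ↥s))
    (Y : Subgroup (Perm ↥(sᶜ : Set Ω))) : Subgroup (Perm Ω) where
  carrier := {σ | ∃ a ∈ X, ∃ b ∈ Y, (∀ y : ↥s, σ (y : Ω) = (a y : Ω)) ∧
    (∀ y : ↥(sᶜ : Set Ω), σ (y : Ω) = (b y : Ω))}
  mul_mem' := by
    rintro σ τ ⟨a, ha, b, hb, h1, h2⟩ ⟨a', ha', b', hb', h1', h2'⟩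
    refine ⟨a * a', X.mul_mem ha ha', b * b', Y.mul_mem hb hb', fun y => ?_, fun y => ?_⟩
    · rw [Perm.mul_apply, h1' y, h1 (a' y), Perm.mul_apply]
    · rw [Perm.mul_apply, h2' y, h2 (b' y), Perm.mul_apply]
  one_mem' := ⟨1, X.one_mem, 1, Y.one_mem, fun _ => rfl, fun _ => rfl⟩
  inv_mem' := by
    rintro σ ⟨a, ha, b, hb, h1, h2⟩
    refine ⟨a⁻¹, X.inv_mem ha, b⁻¹, Y.inv_mem hb, fun y => ?_, fun y => ?_⟩
    · have h := h1 (a⁻¹ y)
      have e : a (a⁻¹ y) = y := by simp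
      rw [e] at h
      rw [Perm.inv_eq_iff_eq]
      exact h.symm
    · have h := h2 (b⁻¹ y)
      have e : b (b⁻¹ y) = y := by simp
      rw [e] at h
      rw [Perm.inv_eq_iff_eq]
      exact h.symm

theorem mem_prodSub {Ω : Type*} (s : Set Ω) (X : Subgroup (Perm ↥s))
    (Y : Subgroup (Perm ↥(sᶜ : Set Ω))) (σ : Perm Ω) :
    σ ∈ prodSub s X Y ↔ ∃ a ∈ X, ∃ b ∈ Y, (∀ y : ↥s, σ (y : Ω) = (a y : Ω)) ∧
      (∀ y : ↥(sᶜ : Set Ω), σ (y : Ω) = (b y : Ω)) := Iff.rfl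

/-- the permutations preserving the partition `{B, Bᶜ}` (as a partition) -/
def Wsub {Ω : Type*} (B : Set Ω) : Subgroup (Perm Ω) where
  carrier := {σ | ∀ x y : Ω, (x ∈ B ↔ y ∈ B) ↔ (σ x ∈ B ↔ σ y ∈ B)}
  mul_mem' := by
    intro σ τ hσ hτ x y
    rw [Perm.mul_apply, Perm.mul_apply, ← hσ, ← hτ]
  one_mem' := fun _ _ => Iff.rfl
  inv_mem' := by
    intro σ hσ x y
    have h := hσ (σ⁻¹ x) (σ⁻¹ y)
    have e1 : σ (σ⁻¹ x) = x := by simp
    have e2 : σ (σ⁻¹ y) = y := by simp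
    rw [e1, e2] at h
    exact h.symm

theorem mem_Wsub {Ω : Type*} (B : Set Ω) (σ : Perm Ω) :
    σ ∈ Wsub B ↔ ∀ x y : Ω, (x ∈ B ↔ y ∈ B) ↔ (σ x ∈ B ↔ σ y ∈ B) := Iff.rfl

/-- `K` (a Hall `π`-subgroup of the alternating group) is the intersection with the alternating
group of a Hall `π`-subgroup of the symmetric group -/
def Lift {Ω : Type*} [Finite Ω] (π : Set ℕ) (K : Subgroup (Perm Ω)) : Prop :=
  ∃ M₀ : Subgroup (Perm Ω), Cfsg.IsPiHall π M₀ ∧ M₀ ⊓ altG Ω = K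

/-- induction hypothesis: `Lift` holds in all degrees `< n` -/
def IHyp (π : Set ℕ) (n : ℕ) : Prop :=
  ∀ (Ω' : Type) [Finite Ω'] (K' : Subgroup (Perm Ω')), Nat.card Ω' < n →
    Cfsg.IsPiHallOf π K' (altG Ω') → Lift π K'

end Cfsg.Agent.Lib.Helper45.HA
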