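import Mathlib
import Cfsg.Agent.Lib.Helper45.HADefs

/-! HALL-ALT piece DpiB (project of helper45; S2534): `D_π` gives a Hall `π`-subgroup containing
every `π`-subgroup up to conjugacy. (Filled in by helper45.) -/

set_option autoImplicit false

namespace Cfsg.Agent.Lib.Helper45.HA

open Equiv Cfsg.Agent.Lib.Helper13

/-- in a finite group every `π`-subgroup lies in a maximal one -/
theorem dpib_exists_maximal {G : Type*} [Group G] [Finite G] (π : Set ℕ) (R : Subgroup G)
    (hR : Cfsg.IsPiSubgroup π R) :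
    ∃ M : Subgroup G, R ≤ M ∧ Maximal (Cfsg.IsPiSubgroup π) M := by
  have hfin : {H : Subgroup G | Cfsg.IsPiSubgroup π H}.Finite := Set.toFinite _
  obtain ⟨M, hRM, hM⟩ := hfin.exists_le_maximal hR
  exact ⟨M, hRM, hM⟩

/-- `D_π` implies: a Hall `π`-subgroup exists and every `π`-subgroup lies in a conjugate of it -/
theorem hall_of_dpi {G : Type*} [Group G] [Finite G] (π : Set ℕ) (h : Cfsg.IsDPiGroup π G) :
    ∃ K : Subgroup G, Cfsg.IsPiHall π K ∧
      ∀ R : Subgroup G, Cfsg.IsPiSubgroup π R → ∃ g : G, R ≤ K.map (MulAut.conj g).toMonoidHom := by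
  have hbot : Cfsg.IsPiSubgroup π (⊥ : Subgroup G) := by
    intro p hp hd
    rw [Subgroup.card_bot] at hd
    exact absurd (Nat.dvd_one.mp hd) hp.one_lt.ne'
  obtain ⟨K, -, hK⟩ := dpib_exists_maximal π ⊥ hbot
  have hconj : ∀ R : Subgroup G, Cfsg.IsPiSubgroup π R →
      ∃ g : G, R ≤ K.map (MulAut.conj g).toMonoidHom := by
    intro R hR
    obtain ⟨M, hRM, hM⟩ := dpib_exists_maximal π R hR
    obtain ⟨g, hg⟩ := h K M hK hM
    exact ⟨g, hg ▸ hRM⟩
  refine ⟨K, ⟨hK.prop, fun p hp hpπ hdvd => ?_⟩, hconj⟩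
  have : Fact p.Prime := ⟨hp⟩
  obtain ⟨P⟩ : Nonempty (Sylow p G) := inferInstance
  have hPπ : Cfsg.IsPiSubgroup π (P : Subgroup G) := by
    intro q hq hd
    rw [Sylow.card_eq_multiplicity] at hd
    have : q = p := (Nat.prime_dvd_prime_iff_eq hq hp).mp (hq.dvd_of_dvd_pow hd)
    exact this ▸ hpπ
  obtain ⟨g, hg⟩ := hconj P hPπ
  have hcard : Nat.card (K.map (MulAut.conj g).toMonoidHom) = Nat.card K :=
    Subgroup.card_map_of_injective (MulAut.conj g).injective
  have h1 : Nat.card (P : Subgroup G) ∣ Nat.card K := by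
    rw [← hcard]
    exact Subgroup.card_dvd_of_le hg
  rw [Sylow.card_eq_multiplicity] at h1
  have h2 : p ^ ((Nat.card G).factorization p + 1) ∣ Nat.card G := by
    have h3 := Nat.mul_dvd_mul h1 hdvd
    rw [Subgroup.card_mul_index K] at h3
    rw [pow_succ]
    exact h3
  exact Nat.pow_succ_factorization_not_dvd Nat.card_pos.ne' hp h2

end Cfsg.Agent.Lib.Helper45.HA
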