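import Mathlib
import Cfsg.Agent.Lib.Helper45.HADefs
import Cfsg.Agent.Lib.Helper13.HSExist

/-! HALL-ALT piece REight (project of helper45; S2538/S2535/S2534).
PLACEHOLDER: replace the `sorry`(s) in THIS file; keep theorem names and statements byte-identical;
keep the namespace; auxiliary lemmas go ABOVE the theorems and MUST start with the prefix `r8_`.
Paper proofs: see the note (topic "HALL-ALT"). -/

set_option autoImplicit false

namespace Cfsg.Agent.Lib.Helper45.HA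

open Equiv Cfsg.Agent.Lib.Helper13

/-- the Young embedding `S_3 × S_2 → S_5` -/
noncomputable def r8_psi1 : Perm (Fin 3) × Perm (Fin 2) →* Perm (Fin 5) :=
  ((finSumFinEquiv (m := 3) (n := 2)).permCongrHom.toMonoidHom).comp
    (Equiv.Perm.sumCongrHom (Fin 3) (Fin 2))

/-- the Young embedding `S_3 × S_5 → S_8` -/
noncomputable def r8_psi2 : Perm (Fin 3) × Perm (Fin 5) →* Perm (Fin 8) :=
  ((finSumFinEquiv (m := 3) (n := 5)).permCongrHom.toMonoidHom).comp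
    (Equiv.Perm.sumCongrHom (Fin 3) (Fin 5))

/-- the Young embedding `S_3 × S_3 × S_2 → S_8` -/
noncomputable def r8_psi : Perm (Fin 3) × (Perm (Fin 3) × Perm (Fin 2)) →* Perm (Fin 8) :=
  r8_psi2.comp (MonoidHom.prodMap (MonoidHom.id _) r8_psi1)

theorem r8_psi1_inj : Function.Injective r8_psi1 :=
  fun a b hab => Equiv.Perm.sumCongrHom_injective
    ((finSumFinEquiv (m := 3) (n := 2)).permCongrHom.injective hab)

theorem r8_psi2_inj : Function.Injective r8_psi2 :=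
  fun a b hab => Equiv.Perm.sumCongrHom_injective
    ((finSumFinEquiv (m := 3) (n := 5)).permCongrHom.injective hab)

theorem r8_psi_inj : Function.Injective r8_psi := by
  unfold r8_psi
  refine r8_psi2_inj.comp ?_
  intro x y h
  have h1 := congrArg Prod.fst h
  have h2 := congrArg Prod.snd h
  simp only [MonoidHom.prodMap, MonoidHom.coe_mk, OneHom.coe_mk] at h1 h2
  exact Prod.ext (by simpa using h1) (r8_psi1_inj (by simpa using h2))

theorem r8_card_range : Nat.card r8_psi.range = 72 := by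
  rw [HS.exist_card_range _ r8_psi_inj, Nat.card_prod, Nat.card_prod, Nat.card_perm,
    Nat.card_perm, Nat.card_fin, Nat.card_fin]
  rfl

theorem r8_prime_dvd_72 {p : ℕ} (hp : p.Prime) (h : p ∣ 72) : p = 2 ∨ p = 3 :=
  HS.exist_prime_dvd_144 hp (h.trans (by norm_num))

/-- a 3-cycle on `Fin 3` -/
def r8_c3 : Perm (Fin 3) := swap 0 1 * swap 1 2

theorem r8_apply (σ : Perm (Fin 3)) (τ : Perm (Fin 3)) (ρ : Perm (Fin 2)) (x : Fin 8) :
    r8_psi (σ, (τ, ρ)) x =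
      finSumFinEquiv (m := 3) (n := 5)
        (Sum.map σ (fun y => finSumFinEquiv (m := 3) (n := 2)
          (Sum.map τ ρ ((finSumFinEquiv (m := 3) (n := 2)).symm y)))
          ((finSumFinEquiv (m := 3) (n := 5)).symm x)) := by
  simp [r8_psi, r8_psi1, r8_psi2, MonoidHom.prodMap, Equiv.permCongr_apply]
  rfl

theorem r8_sign (σ : Perm (Fin 3)) (τ : Perm (Fin 3)) (ρ : Perm (Fin 2)) :
    Equiv.Perm.sign (r8_psi (σ, (τ, ρ))) =
      Equiv.Perm.sign σ * (Equiv.Perm.sign τ * Equiv.Perm.sign ρ) := by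
  simp [r8_psi, r8_psi1, r8_psi2, MonoidHom.prodMap]

theorem r8_a0 : r8_psi (r8_c3, (1, 1)) 0 = 1 := by rw [r8_apply]; decide
theorem r8_a1 : r8_psi (r8_c3, (1, 1)) 1 = 2 := by rw [r8_apply]; decide
theorem r8_a3 : r8_psi (r8_c3, (1, 1)) 3 = 3 := by rw [r8_apply]; decide
theorem r8_b3 : r8_psi (1, (r8_c3, 1)) 3 = 4 := by rw [r8_apply]; decide
theorem r8_b4 : r8_psi (1, (r8_c3, 1)) 4 = 5 := by rw [r8_apply]; decide
theorem r8_b0 : r8_psi (1, (r8_c3, 1)) 0 = 0 := by rw [r8_apply]; decide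
theorem r8_c6 : r8_psi (swap 0 1, (1, swap 0 1)) 6 = 7 := by rw [r8_apply]; decide
theorem r8_c2 : r8_psi (swap 0 1, (1, swap 0 1)) 2 = 2 := by rw [r8_apply]; decide

theorem r8_mem_alt (σ : Perm (Fin 3)) (τ : Perm (Fin 3)) (ρ : Perm (Fin 2))
    (h : Equiv.Perm.sign σ * (Equiv.Perm.sign τ * Equiv.Perm.sign ρ) = 1) :
    r8_psi (σ, (τ, ρ)) ∈ r8_psi.range ⊓ alternatingGroup (Fin 8) := by
  refine Subgroup.mem_inf.mpr ⟨⟨_, rfl⟩, ?_⟩
  rw [Equiv.Perm.mem_alternatingGroup, r8_sign]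
  exact h

theorem r8_same_side {B : Set (Fin 8)} {σ : Perm (Fin 8)} (hσ : σ ∈ Wsub B) {x y : Fin 8}
    (hy : σ y = y) : x ∈ B ↔ σ x ∈ B := by
  have h := hσ x y
  rw [hy] at h
  tauto

theorem r8_ncard (B : Set (Fin 8)) (h01 : (0 : Fin 8) ∈ B ↔ (1 : Fin 8) ∈ B)
    (h12 : (1 : Fin 8) ∈ B ↔ (2 : Fin 8) ∈ B) (h34 : (3 : Fin 8) ∈ B ↔ (4 : Fin 8) ∈ B)
    (h45 : (4 : Fin 8) ∈ B ↔ (5 : Fin 8) ∈ B) (h67 : (6 : Fin 8) ∈ B ↔ (7 : Fin 8) ∈ B) :
    B.ncard ≠ 4 := by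
  classical
  have hB : B = ↑(Finset.univ.filter (· ∈ B)) := by ext x; simp
  rw [hB, Set.ncard_coe_finset, Finset.card_filter, Fin.sum_univ_eight]
  have e1 : ((1 : Fin 8) ∈ B) = ((0 : Fin 8) ∈ B) := propext h01.symm
  have e2 : ((2 : Fin 8) ∈ B) = ((0 : Fin 8) ∈ B) := propext (h01.trans h12).symm
  have e4 : ((4 : Fin 8) ∈ B) = ((3 : Fin 8) ∈ B) := propext h34.symm
  have e5 : ((5 : Fin 8) ∈ B) = ((3 : Fin 8) ∈ B) := propext (h34.trans h45).symm
  have e7 : ((7 : Fin 8) ∈ B) = ((6 : Fin 8) ∈ B) := propext h67.symm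
  simp only [e1, e2, e4, e5, e7]
  by_cases h0 : (0 : Fin 8) ∈ B <;> by_cases h3 : (3 : Fin 8) ∈ B <;>
    by_cases h6 : (6 : Fin 8) ∈ B <;> simp [h0, h3, h6]

/-- a `{2,3}`-subgroup of `A_8` preserving no partition into two 4-sets (even permutations
preserving the partition `{0,1},{2,3},{4,5},{6,7}`) -/
theorem R_eight (π : Set ℕ) (hCd : HS.Cd π 8) :
    ∃ R : Subgroup (Perm (Fin 8)), R ≤ alternatingGroup (Fin 8) ∧
      (∀ p : ℕ, p.Prime → p ∣ Nat.card R → p ∈ π) ∧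
      ∀ B : Set (Fin 8), B.ncard = 4 → ¬ R ≤ Wsub B := by
  refine ⟨r8_psi.range ⊓ alternatingGroup (Fin 8), inf_le_right, ?_, ?_⟩
  · intro p hp hdvd
    have h1 : Nat.card (r8_psi.range ⊓ alternatingGroup (Fin 8) : Subgroup (Perm (Fin 8))) ∣
        Nat.card r8_psi.range := Subgroup.card_dvd_of_le inf_le_left
    rw [r8_card_range] at h1
    have h23 := r8_prime_dvd_72 hp (hdvd.trans h1)
    exact (hCd.2 p hp (by rcases h23 with rfl | rfl <;> omega)).mpr h23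
  · intro B hB hle
    have ha : r8_psi (r8_c3, (1, 1)) ∈ Wsub B :=
      hle (r8_mem_alt _ _ _ (by decide))
    have hb : r8_psi (1, (r8_c3, 1)) ∈ Wsub B :=
      hle (r8_mem_alt _ _ _ (by decide))
    have hc : r8_psi (swap 0 1, (1, swap 0 1)) ∈ Wsub B :=
      hle (r8_mem_alt _ _ _ (by decide))
    have h01 : (0 : Fin 8) ∈ B ↔ (1 : Fin 8) ∈ B := by
      have h := r8_same_side ha (x := 0) r8_a3
      rwa [r8_a0] at h
    have h12 : (1 : Fin 8) ∈ B ↔ (2 : Fin 8) ∈ B := by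
      have h := r8_same_side ha (x := 1) r8_a3
      rwa [r8_a1] at h
    have h34 : (3 : Fin 8) ∈ B ↔ (4 : Fin 8) ∈ B := by
      have h := r8_same_side hb (x := 3) r8_b0
      rwa [r8_b3] at h
    have h45 : (4 : Fin 8) ∈ B ↔ (5 : Fin 8) ∈ B := by
      have h := r8_same_side hb (x := 4) r8_b0
      rwa [r8_b4] at h
    have h67 : (6 : Fin 8) ∈ B ↔ (7 : Fin 8) ∈ B := by
      have h := r8_same_side hc (x := 6) r8_c2
      rwa [r8_c6] at h
    exact r8_ncard B h01 h12 h34 h45 h67 hB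

end Cfsg.Agent.Lib.Helper45.HA
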