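import Mathlib
import Cfsg.Agent.Lib.Helper45.HADefs

/-! HALL-ALT piece RPrime (project of helper45; S2538/S2535/S2534).
PLACEHOLDER: replace the `sorry`(s) in THIS file; keep theorem names and statements byte-identical;
keep the namespace; auxiliary lemmas go ABOVE the theorems and MUST start with the prefix `rp_`.
Paper proofs: see the note (topic "HALL-ALT"). -/

set_option autoImplicit false

namespace Cfsg.Agent.Lib.Helper45.HA

open Equiv Cfsg.Agent.Lib.Helper13

/-- the even permutations preserving the pair `{a, b}` -/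
def rp_sub {n : ℕ} (a b : Fin n) : Subgroup (Perm (Fin n)) where
  carrier := {σ | σ ∈ alternatingGroup (Fin n) ∧ (σ a = a ∨ σ a = b) ∧ (σ b = a ∨ σ b = b)}
  mul_mem' := by
    rintro σ τ ⟨hσ, hσa, hσb⟩ ⟨hτ, hτa, hτb⟩
    refine ⟨mul_mem hσ hτ, ?_, ?_⟩
    · rw [Perm.mul_apply]
      rcases hτa with h | h <;> rw [h] <;> assumption
    · rw [Perm.mul_apply]
      rcases hτb with h | h <;> rw [h] <;> assumption
  one_mem' := ⟨one_mem _, Or.inl rfl, Or.inr rfl⟩
  inv_mem' := by
    rintro σ ⟨hσ, hσa, hσb⟩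
    refine ⟨inv_mem hσ, ?_, ?_⟩
    · rcases hσa with h | h
      · left; rw [Perm.inv_eq_iff_eq]; exact h.symm
      · rcases hσb with h' | h'
        · right; rw [Perm.inv_eq_iff_eq]; exact h'.symm
        · left
          have hab : a = b := σ.injective (h.trans h'.symm)
          rw [Perm.inv_eq_iff_eq]
          exact hab.trans h.symm
    · rcases hσb with h | h
      · rcases hσa with h' | h'
        · right
          have hab : a = b := σ.injective (h'.trans h.symm)
          rw [Perm.inv_eq_iff_eq]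
          exact hab.symm.trans h.symm
        · left; rw [Perm.inv_eq_iff_eq]; exact h'.symm
      · right; rw [Perm.inv_eq_iff_eq]; exact h.symm

theorem rp_mem {n : ℕ} (a b : Fin n) (σ : Perm (Fin n)) :
    σ ∈ rp_sub a b ↔
      σ ∈ alternatingGroup (Fin n) ∧ (σ a = a ∨ σ a = b) ∧ (σ b = a ∨ σ b = b) := Iff.rfl

/-- an element of odd order preserving `{a, b}` fixes `a` -/
theorem rp_fix {n : ℕ} {a b : Fin n} (hab : a ≠ b) {σ : Perm (Fin n)} (hσ : σ ∈ rp_sub a b)
    {m : ℕ} (hm : Odd m) (hσm : σ ^ m = 1) : σ a = a := by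
  obtain ⟨-, hσa, hσb⟩ := hσ
  rcases hσa with h | h
  · exact h
  · exfalso
    have hb : σ b = a := by
      rcases hσb with h' | h'
      · exact h'
      · exact absurd (σ.injective (h.trans h'.symm)) hab
    have h2 : (σ ^ 2) a = a := by
      rw [pow_two, Perm.mul_apply, h, hb]
    obtain ⟨k, rfl⟩ := hm
    have h3 : (σ ^ (2 * (k + 1))) a = a := by
      rw [pow_mul]; exact Perm.pow_apply_eq_self_of_apply_eq_self h2 (k + 1)
    have h4 : σ ^ (2 * (k + 1)) = σ := by
      have : 2 * (k + 1) = (2 * k + 1) + 1 := by ring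
      rw [this, pow_succ, hσm, one_mul]
    rw [h4, h] at h3
    exact hab h3.symm

/-- `n ≥ 5` prime, `π ∩ {primes ≤ n}` = primes `< n`: a `π`-subgroup of `A_n` without fixed point
(the even permutations preserving `{0, 1}`) -/
theorem R_prime (n : ℕ) (hn : 5 ≤ n) (π : Set ℕ) (hCc : HS.Cc π n) :
    ∃ R : Subgroup (Perm (Fin n)), R ≤ alternatingGroup (Fin n) ∧
      (∀ p : ℕ, p.Prime → p ∣ Nat.card R → p ∈ π) ∧ ∀ x : Fin n, ∃ σ ∈ R, σ x ≠ x := by
  obtain ⟨hnp, hπ⟩ := hCc
  obtain ⟨a, ha⟩ : ∃ a : Fin n, a.val = 0 := ⟨⟨0, by omega⟩, rfl⟩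
  obtain ⟨b, hb⟩ : ∃ b : Fin n, b.val = 1 := ⟨⟨1, by omega⟩, rfl⟩
  obtain ⟨c, hc⟩ : ∃ c : Fin n, c.val = 2 := ⟨⟨2, by omega⟩, rfl⟩
  obtain ⟨e, he⟩ : ∃ e : Fin n, e.val = 3 := ⟨⟨3, by omega⟩, rfl⟩
  have hab : a ≠ b := fun h => by rw [h] at ha; omega
  have hac : a ≠ c := fun h => by rw [h] at ha; omega
  have hae : a ≠ e := fun h => by rw [h] at ha; omega
  have hbc : b ≠ c := fun h => by rw [h] at hb; omega
  have hbe : b ≠ e := fun h => by rw [h] at hb; omega
  have hce : c ≠ e := fun h => by rw [h] at hc; omega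
  refine ⟨rp_sub a b, fun σ hσ => hσ.1, ?_, ?_⟩
  · intro p hp hpR
    have hdvd : p ∣ Nat.card (Perm (Fin n)) := hpR.trans (Subgroup.card_subgroup_dvd_card _)
    have hle : p ≤ n := by
      rw [Nat.card_eq_fintype_card, Fintype.card_perm, Fintype.card_fin] at hdvd
      exact (Nat.Prime.dvd_factorial hp).mp hdvd
    apply (hπ p hp hle).mpr
    rcases Nat.lt_or_ge p n with h | h
    · exact h
    · exfalso
      have hpn : p = n := le_antisymm hle h
      have : Fact p.Prime := ⟨hp⟩
      obtain ⟨x, hx⟩ := exists_prime_orderOf_dvd_card' (G := rp_sub a b) p hpR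
      have hσo : orderOf (x : Perm (Fin n)) = n := by
        rw [Subgroup.orderOf_coe, hx, hpn]
      have hodd : Odd n := hnp.odd_of_ne_two (by omega)
      have hpow : (x : Perm (Fin n)) ^ n = 1 := by
        have h1 := pow_orderOf_eq_one (x : Perm (Fin n))
        rw [hσo] at h1
        exact h1
      have hfix : (x : Perm (Fin n)) a = a := rp_fix hab x.2 hodd hpow
      have hcyc : (x : Perm (Fin n)).IsCycle := by
        apply Equiv.Perm.isCycle_of_prime_order''
        · rw [Fintype.card_fin]; exact hnp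
        · rw [Fintype.card_fin]; exact hσo
      have hsupp : (x : Perm (Fin n)).support.card = n := by
        rw [← hcyc.orderOf]; exact hσo
      have huniv : (x : Perm (Fin n)).support = Finset.univ := by
        apply Finset.eq_univ_of_card
        rw [hsupp, Fintype.card_fin]
      have hmem : a ∈ (x : Perm (Fin n)).support := by rw [huniv]; exact Finset.mem_univ a
      exact (Equiv.Perm.mem_support.mp hmem) hfix
  · intro x
    have hs1 : swap a b * swap c e ∈ rp_sub a b := by
      refine ⟨?_, ?_, ?_⟩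
      · rw [Equiv.Perm.mem_alternatingGroup, map_mul, Equiv.Perm.sign_swap hab,
          Equiv.Perm.sign_swap hce]; rfl
      · right
        rw [Perm.mul_apply, swap_apply_of_ne_of_ne hac hae, swap_apply_left]
      · left
        rw [Perm.mul_apply, swap_apply_of_ne_of_ne hbc hbe, swap_apply_right]
    by_cases hxa : x = a
    · refine ⟨swap a b * swap c e, hs1, ?_⟩
      rw [hxa, Perm.mul_apply, swap_apply_of_ne_of_ne hac hae, swap_apply_left]
      exact hab.symm
    by_cases hxb : x = b
    · refine ⟨swap a b * swap c e, hs1, ?_⟩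
      rw [hxb, Perm.mul_apply, swap_apply_of_ne_of_ne hbc hbe, swap_apply_right]
      exact hab
    by_cases hxc : x = c
    · refine ⟨swap a b * swap c e, hs1, ?_⟩
      rw [hxc, Perm.mul_apply, swap_apply_left, swap_apply_of_ne_of_ne hae.symm hbe.symm]
      exact hce.symm
    by_cases hxe : x = e
    · refine ⟨swap a b * swap c e, hs1, ?_⟩
      rw [hxe, Perm.mul_apply, swap_apply_right, swap_apply_of_ne_of_ne hac.symm hbc.symm]
      exact hce
    · refine ⟨swap c x * swap c e, ⟨?_, ?_, ?_⟩, ?_⟩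
      · rw [Equiv.Perm.mem_alternatingGroup, map_mul, Equiv.Perm.sign_swap (Ne.symm hxc),
          Equiv.Perm.sign_swap hce]; rfl
      · left
        rw [Perm.mul_apply, swap_apply_of_ne_of_ne hac hae,
          swap_apply_of_ne_of_ne hac (Ne.symm hxa)]
      · right
        rw [Perm.mul_apply, swap_apply_of_ne_of_ne hbc hbe,
          swap_apply_of_ne_of_ne hbc (Ne.symm hxb)]
      · rw [Perm.mul_apply, swap_apply_of_ne_of_ne hxc hxe, swap_apply_right]
        exact Ne.symm hxc

end Cfsg.Agent.Lib.Helper45.HA
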