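import Mathlib
import Cfsg.Agent.Lib.Helper50.SLRoot
import Cfsg.Agent.Lib.Helper53.AutPSL

/-!
# Foundation for S2140 (minimal index of proper subgroups of `PSL_n(q)`, `n ≥ 3`)

Transvections `tL w χ c = 1 + c • w χᵀ` of helper50; here: sums of centres / axes, the vector group
`uE x = tL e0 (cz x) 1` of all transvections with centre `e0`, its normalising elements, and the
cocycle relation for a complement.
-/

set_option autoImplicit false

namespace Cfsg.Agent.Lib.Helper45.MinIdx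

open Matrix Cfsg.Agent.Lib.Helper50

variable {F : Type*} [Field F]

section General

variable {ι : Type} [Fintype ι] [DecidableEq ι]

/-- product of transvections with the same centre -/
theorem tL_add_right {w χ χ' : ι → F} (h : χ ⬝ᵥ w = 0) (h' : χ' ⬝ᵥ w = 0) :
    tL w (χ + χ') 1 = tL w χ 1 * tL w χ' 1 := by
  have h2 : (χ + χ') ⬝ᵥ w = 0 := by rw [add_dotProduct, h, h', add_zero]
  apply sl_ext
  rw [Matrix.SpecialLinearGroup.coe_mul, tL_coe h2, tL_coe h, tL_coe h']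
  simp only [one_smul, add_mul, mul_add, one_mul, mul_one, vecMulVec_mul_vecMulVec, h, zero_smul,
    vecMulVec_zero, add_zero, vecMulVec_add]
  abel

/-- product of transvections with the same axis -/
theorem tL_add_left {w w' χ : ι → F} (h : χ ⬝ᵥ w = 0) (h' : χ ⬝ᵥ w' = 0) :
    tL (w + w') χ 1 = tL w χ 1 * tL w' χ 1 := by
  have h2 : χ ⬝ᵥ (w + w') = 0 := by rw [dotProduct_add, h, h', add_zero]
  apply sl_ext
  rw [Matrix.SpecialLinearGroup.coe_mul, tL_coe h2, tL_coe h, tL_coe h']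
  simp only [one_smul, add_mul, mul_add, one_mul, mul_one, vecMulVec_mul_vecMulVec, h', zero_smul,
    vecMulVec_zero, add_zero, add_vecMulVec]
  abel

theorem tL_one_eq (w χ : ι → F) (c : F) (h : χ ⬝ᵥ w = 0) : tL w χ c = tL w (c • χ) 1 := by
  rw [tL_smul_right h, mul_one]

theorem tL_one_eq' (w χ : ι → F) (c : F) (h : χ ⬝ᵥ w = 0) : tL w χ c = tL (c • w) χ 1 := by
  rw [tL_smul_left h, mul_one]

theorem tL_zero_right (w : ι → F) : tL w (0 : ι → F) 1 = 1 := by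
  apply sl_ext
  rw [tL_coe (zero_dotProduct w), vecMulVec_zero, smul_zero, add_zero]
  rfl

theorem tL_eq_one_iff {w χ : ι → F} (hw : w ≠ 0) (h : χ ⬝ᵥ w = 0) : tL w χ 1 = 1 ↔ χ = 0 := by
  constructor
  · intro h1
    by_contra hχ
    exact tL_ne_one hw hχ h one_ne_zero h1
  · rintro rfl
    exact tL_zero_right w

theorem tL_inv_one {w χ : ι → F} (h : χ ⬝ᵥ w = 0) : (tL w χ 1)⁻¹ = tL w (-χ) 1 := by
  rw [tL_inv, tL_one_eq w χ (-1) h, neg_one_smul]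

theorem tL_zero_left (χ : ι → F) (c : F) : tL (0 : ι → F) χ c = 1 := by
  apply sl_ext
  rw [tL_coe (dotProduct_zero χ), zero_vecMulVec, smul_zero, add_zero]
  rfl

theorem mulVec_ne_zero' (g : Matrix.SpecialLinearGroup ι F) {e : ι → F} (he : e ≠ 0) :
    (g : Matrix ι ι F) *ᵥ e ≠ 0 := by
  intro h
  apply he
  have h1 := congrArg (fun z => (↑(g⁻¹) : Matrix ι ι F) *ᵥ z) h
  simp only [Matrix.mulVec_mulVec, Cfsg.Agent.Lib.Helper87.sl_inv_mul, Matrix.one_mulVec,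
    Matrix.mulVec_zero] at h1
  exact h1

/-- an element of the point stabiliser moves the transvections with centre `e` among themselves -/
theorem conj_centre (e : ι → F) (g : Matrix.SpecialLinearGroup ι F) (c : F)
    (hg : (g : Matrix ι ι F) *ᵥ e = c • e) (φ : ι → F) (hφ : φ ⬝ᵥ e = 0) :
    g * tL e φ 1 * g⁻¹ = tL e (c • (φ ᵥ* (↑(g⁻¹) : Matrix ι ι F))) 1 := by
  by_cases he : e = 0
  · subst he
    rw [tL_zero_left, tL_zero_left, mul_one, mul_inv_cancel]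
  have hc : c ≠ 0 := by
    rintro rfl
    rw [zero_smul] at hg
    exact mulVec_ne_zero' g he hg
  have h1 := conj_dot hφ g
  rw [tL_conj hφ, hg]
  rw [hg] at h1
  have h2 : (φ ᵥ* (↑(g⁻¹) : Matrix ι ι F)) ⬝ᵥ e = 0 := by
    rw [dotProduct_smul, smul_eq_mul] at h1
    rcases mul_eq_zero.1 h1 with h3 | h3
    · exact absurd h3 hc
    · exact h3
  rw [tL_smul_left h2, mul_one, tL_one_eq e _ c h2]

theorem conj_centre_dot (e : ι → F) (he : e ≠ 0) (g : Matrix.SpecialLinearGroup ι F) (c : F)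
    (hg : (g : Matrix ι ι F) *ᵥ e = c • e) (φ : ι → F) (hφ : φ ⬝ᵥ e = 0) :
    (c • (φ ᵥ* (↑(g⁻¹) : Matrix ι ι F))) ⬝ᵥ e = 0 := by
  have hc : c ≠ 0 := by
    rintro rfl
    rw [zero_smul] at hg
    exact mulVec_ne_zero' g he hg
  have h1 := conj_dot hφ g
  rw [hg, dotProduct_smul, smul_eq_mul] at h1
  rw [smul_dotProduct, smul_eq_mul]
  rcases mul_eq_zero.1 h1 with h3 | h3
  · exact absurd h3 hc
  · rw [h3, mul_zero]

/-- product formula in `U_e ⋊ G_e` -/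
theorem mul_form (e : ι → F) (he : e ≠ 0) (g g' : Matrix.SpecialLinearGroup ι F) (c : F)
    (hg : (g : Matrix ι ι F) *ᵥ e = c • e) (φ φ' : ι → F) (hφ : φ ⬝ᵥ e = 0) (hφ' : φ' ⬝ᵥ e = 0) :
    (tL e φ 1 * g) * (tL e φ' 1 * g') =
      tL e (φ + c • (φ' ᵥ* (↑(g⁻¹) : Matrix ι ι F))) 1 * (g * g') := by
  have h2 := conj_centre_dot e he g c hg φ' hφ'
  rw [tL_add_right hφ h2, ← conj_centre e g c hg φ' hφ']
  group

/-- the cocycle relation for commuting elements of the point stabiliser: if `H` contains no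
transvection with centre `e`, and `tL e φ 1 * g`, `tL e φ' 1 * g'` lie in `H` with `g g' = g' g`. -/
theorem rel_of_comm (H : Subgroup (Matrix.SpecialLinearGroup ι F)) (e : ι → F) (he : e ≠ 0)
    (hfree : ∀ φ : ι → F, φ ⬝ᵥ e = 0 → tL e φ 1 ∈ H → φ = 0)
    (g g' : Matrix.SpecialLinearGroup ι F) (c c' : F)
    (hg : (g : Matrix ι ι F) *ᵥ e = c • e) (hg' : (g' : Matrix ι ι F) *ᵥ e = c' • e)
    (hcomm : g * g' = g' * g) (φ φ' : ι → F) (hφ : φ ⬝ᵥ e = 0) (hφ' : φ' ⬝ᵥ e = 0)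
    (h1 : tL e φ 1 * g ∈ H) (h2 : tL e φ' 1 * g' ∈ H) :
    φ + c • (φ' ᵥ* (↑(g⁻¹) : Matrix ι ι F)) = φ' + c' • (φ ᵥ* (↑(g'⁻¹) : Matrix ι ι F)) := by
  have e1 := mul_form e he g g' c hg φ φ' hφ hφ'
  have e2 := mul_form e he g' g c' hg' φ' φ hφ' hφ
  have m1 : tL e (φ + c • (φ' ᵥ* (↑(g⁻¹) : Matrix ι ι F))) 1 * (g * g') ∈ H := by
    rw [← e1]
    exact H.mul_mem h1 h2
  have m2 : tL e (φ' + c' • (φ ᵥ* (↑(g'⁻¹) : Matrix ι ι F))) 1 * (g * g') ∈ H := by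
    rw [hcomm, ← e2]
    exact H.mul_mem h2 h1
  have d1 : (φ + c • (φ' ᵥ* (↑(g⁻¹) : Matrix ι ι F))) ⬝ᵥ e = 0 := by
    rw [add_dotProduct, hφ, conj_centre_dot e he g c hg φ' hφ', add_zero]
  have d2 : (φ' + c' • (φ ᵥ* (↑(g'⁻¹) : Matrix ι ι F))) ⬝ᵥ e = 0 := by
    rw [add_dotProduct, hφ', conj_centre_dot e he g' c' hg' φ hφ, add_zero]
  have m3 : tL e (φ + c • (φ' ᵥ* (↑(g⁻¹) : Matrix ι ι F))) 1 *
      (tL e (φ' + c' • (φ ᵥ* (↑(g'⁻¹) : Matrix ι ι F))) 1)⁻¹ ∈ H := by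
    have := H.mul_mem m1 (H.inv_mem m2)
    rwa [_root_.mul_inv_rev, mul_assoc, ← mul_assoc (g * g'), mul_inv_cancel, one_mul] at this
  rw [tL_inv_one d2, ← tL_add_right d1 (by rw [neg_dotProduct, d2, neg_zero])] at m3
  have h3 := hfree _ (by rw [add_dotProduct, d1, neg_dotProduct, d2, neg_zero, add_zero]) m3
  exact add_neg_eq_zero.1 h3

/-- a product `tL e (c • ψ) 1 * tL b ψ 1` is again a transvection -/
theorem tv_of_prop (e b ψ : ι → F) (c : F) (he : ψ ⬝ᵥ e = 0) (hb : ψ ⬝ᵥ b = 0) :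
    tL e (c • ψ) 1 * tL b ψ 1 = tL (c • e + b) ψ 1 := by
  have h1 : ψ ⬝ᵥ (c • e) = 0 := by rw [dotProduct_smul, he, smul_zero]
  rw [tL_add_left h1 hb, ← tL_one_eq' e ψ c he, tL_one_eq e ψ c he]

/-- two lifts of the same element agree (when `H` has no transvection with centre `e`) -/
theorem compl_unique (H : Subgroup (Matrix.SpecialLinearGroup ι F)) (e : ι → F)
    (hfree : ∀ φ : ι → F, φ ⬝ᵥ e = 0 → tL e φ 1 ∈ H → φ = 0)
    (g : Matrix.SpecialLinearGroup ι F) (φ φ' : ι → F) (hφ : φ ⬝ᵥ e = 0) (hφ' : φ' ⬝ᵥ e = 0)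
    (h1 : tL e φ 1 * g ∈ H) (h2 : tL e φ' 1 * g ∈ H) : φ = φ' := by
  have m3 : tL e φ 1 * (tL e φ' 1)⁻¹ ∈ H := by
    have := H.mul_mem h1 (H.inv_mem h2)
    rwa [_root_.mul_inv_rev, mul_assoc, ← mul_assoc g, mul_inv_cancel, one_mul] at this
  rw [tL_inv_one hφ', ← tL_add_right hφ (by rw [neg_dotProduct, hφ', neg_zero])] at m3
  have h3 := hfree _ (by rw [add_dotProduct, hφ, neg_dotProduct, hφ', neg_zero, add_zero]) m3
  exact add_neg_eq_zero.1 h3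

/-- the cocycle relation for two commuting transvections `tL b ψ 1`, `tL c χ 1` fixing `e` -/
theorem rel_tv (H : Subgroup (Matrix.SpecialLinearGroup ι F)) (e : ι → F) (he : e ≠ 0)
    (hfree : ∀ φ : ι → F, φ ⬝ᵥ e = 0 → tL e φ 1 ∈ H → φ = 0)
    (b ψ c χ : ι → F) (hψe : ψ ⬝ᵥ e = 0) (hψb : ψ ⬝ᵥ b = 0) (hχe : χ ⬝ᵥ e = 0)
    (hχc : χ ⬝ᵥ c = 0) (hψc : ψ ⬝ᵥ c = 0) (hχb : χ ⬝ᵥ b = 0)
    (φ φ' : ι → F) (hφ : φ ⬝ᵥ e = 0) (hφ' : φ' ⬝ᵥ e = 0)
    (h1 : tL e φ 1 * tL b ψ 1 ∈ H) (h2 : tL e φ' 1 * tL c χ 1 ∈ H) :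
    (φ' ⬝ᵥ b) • ψ = (φ ⬝ᵥ c) • χ := by
  have hg : (tL b ψ (1 : F) : Matrix ι ι F) *ᵥ e = (1 : F) • e := by
    rw [tL_mulVec hψb, hψe, mul_zero, zero_smul, add_zero, one_smul]
  have hg' : (tL c χ (1 : F) : Matrix ι ι F) *ᵥ e = (1 : F) • e := by
    rw [tL_mulVec hχc, hχe, mul_zero, zero_smul, add_zero, one_smul]
  have h := rel_of_comm H e he hfree (tL b ψ 1) (tL c χ 1) 1 1 hg hg'
    (tL_comm hψb hχc hψc hχb 1 1) φ φ' hφ hφ' h1 h2
  rw [tL_inv, tL_inv, tL_vecMul hψb, tL_vecMul hχc, one_smul, one_smul] at h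
  have h' : φ + φ' + (-((φ' ⬝ᵥ b) • ψ)) = φ + φ' + (-((φ ⬝ᵥ c) • χ)) := by
    have e1 : φ + (φ' + (-1 * (φ' ⬝ᵥ b)) • ψ) = φ + φ' + (-((φ' ⬝ᵥ b) • ψ)) := by
      rw [neg_one_mul, neg_smul, add_assoc]
    have e2 : φ' + (φ + (-1 * (φ ⬝ᵥ c)) • χ) = φ + φ' + (-((φ ⬝ᵥ c) • χ)) := by
      rw [neg_one_mul, neg_smul, ← add_assoc, add_comm φ' φ]
    rw [← e1, ← e2]
    exact h
  exact neg_injective (add_left_cancel h')

/-- if the lift of the transvection `tL b ψ 1` has the form `tL e (c • ψ) 1`, then `H` contains a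
transvection -/
theorem no_prop (H : Subgroup (Matrix.SpecialLinearGroup ι F)) (e : ι → F)
    (hfree : ∀ a φ : ι → F, a ≠ 0 → φ ⬝ᵥ a = 0 → tL a φ 1 ∈ H → φ = 0)
    (b ψ : ι → F) (hb : ∀ c : F, b ≠ c • e) (hψ : ψ ≠ 0) (hψe : ψ ⬝ᵥ e = 0) (hψb : ψ ⬝ᵥ b = 0)
    (c : F) (h : tL e (c • ψ) 1 * tL b ψ 1 ∈ H) : False := by
  rw [tv_of_prop e b ψ c hψe hψb] at h
  have h0 : c • e + b ≠ 0 := by
    intro h1
    apply hb (-c)
    rw [neg_smul]
    exact eq_neg_of_add_eq_zero_right h1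
  have h2 : ψ ⬝ᵥ (c • e + b) = 0 := by
    rw [dotProduct_add, dotProduct_smul, hψe, hψb, smul_zero, add_zero]
  exact hψ (hfree _ _ h0 h2 h)

end General

section Std

variable {k : ℕ}

/-- the first standard basis vector -/
def e0 : Fin (k + 1) → F := Pi.single 0 1

/-- a vector of `F^k` as a functional on `F^(k+1)` vanishing at `e0` -/
def cz (x : Fin k → F) : Fin (k + 1) → F := Fin.cons 0 x

theorem e0_ne_zero : (e0 : Fin (k + 1) → F) ≠ 0 := by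
  intro h
  have h1 := congrFun h 0
  simp [e0] at h1

theorem dot_e0 (φ : Fin (k + 1) → F) : φ ⬝ᵥ (e0 : Fin (k + 1) → F) = φ 0 := by
  simp [e0]

theorem cz_dot_e0 (x : Fin k → F) : cz x ⬝ᵥ (e0 : Fin (k + 1) → F) = 0 := by
  rw [dot_e0]
  rfl

theorem cz_add (x y : Fin k → F) : cz (x + y) = cz x + cz y := by
  funext i
  refine Fin.cases ?_ (fun j => ?_) i
  · simp [cz]
  · simp [cz]

theorem cz_zero : cz (0 : Fin k → F) = 0 := by
  funext i
  refine Fin.cases ?_ (fun j => ?_) i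
  · simp [cz]
  · simp [cz]

theorem cz_smul (c : F) (x : Fin k → F) : cz (c • x) = c • cz x := by
  funext i
  refine Fin.cases ?_ (fun j => ?_) i
  · simp [cz]
  · simp [cz]

theorem cz_injective : Function.Injective (cz : (Fin k → F) → Fin (k + 1) → F) := by
  intro x y h
  funext j
  have := congrFun h j.succ
  simpa [cz] using this

theorem exists_cz (φ : Fin (k + 1) → F) (h : φ ⬝ᵥ (e0 : Fin (k + 1) → F) = 0) :
    ∃ x : Fin k → F, φ = cz x := by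
  rw [dot_e0] at h
  refine ⟨fun j => φ j.succ, ?_⟩
  funext i
  refine Fin.cases ?_ (fun j => ?_) i
  · simp [cz, h]
  · simp [cz]

theorem cz_dot_cz (x y : Fin k → F) : cz x ⬝ᵥ cz y = x ⬝ᵥ y := by
  simp [cz, dotProduct, Fin.sum_univ_succ]

/-- the transvections with centre `e0` -/
noncomputable def uE (x : Fin k → F) : Matrix.SpecialLinearGroup (Fin (k + 1)) F :=
  tL e0 (cz x) 1

theorem uE_add (x y : Fin k → F) : (uE (x + y) : Matrix.SpecialLinearGroup (Fin (k + 1)) F) =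
    uE x * uE y := by
  unfold uE
  rw [cz_add, tL_add_right (cz_dot_e0 x) (cz_dot_e0 y)]

theorem uE_eq_one_iff (x : Fin k → F) :
    (uE x : Matrix.SpecialLinearGroup (Fin (k + 1)) F) = 1 ↔ x = 0 := by
  unfold uE
  rw [tL_eq_one_iff e0_ne_zero (cz_dot_e0 x)]
  constructor
  · intro h
    apply cz_injective
    rw [h, cz_zero]
  · rintro rfl
    exact cz_zero

theorem uE_inv (x : Fin k → F) : (uE x : Matrix.SpecialLinearGroup (Fin (k + 1)) F)⁻¹ =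
    uE (-x) := by
  apply inv_eq_of_mul_eq_one_right
  rw [← uE_add, add_neg_cancel]
  exact (uE_eq_one_iff 0).2 rfl

/-- conjugates of `uE x` -/
theorem conj_uE (g : Matrix.SpecialLinearGroup (Fin (k + 1)) F) (x : Fin k → F) :
    g * uE x * g⁻¹ = tL ((g : Matrix (Fin (k + 1)) (Fin (k + 1)) F) *ᵥ e0)
      (cz x ᵥ* (↑(g⁻¹) : Matrix (Fin (k + 1)) (Fin (k + 1)) F)) 1 := by
  unfold uE
  rw [tL_conj (cz_dot_e0 x)]

/-- every element of `SL_k` acting on the parameter of `uE` is induced by conjugation -/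
theorem exists_norm (hk : 2 ≤ k) (A : Matrix.SpecialLinearGroup (Fin k) F) :
    ∃ g : Matrix.SpecialLinearGroup (Fin (k + 1)) F, ∀ x : Fin k → F,
      g * uE x * g⁻¹ = uE ((A : Matrix (Fin k) (Fin k) F) *ᵥ x) := by
  have : Nontrivial (Fin k) := Fin.nontrivial_iff_two_le.2 hk
  have hA : A ∈ Subgroup.closure (Cfsg.Agent.Lib.Helper87.tvSet (Fin k) F) := by
    rw [Cfsg.Agent.Lib.Helper87.closure_tvSet]
    exact Subgroup.mem_top A
  induction hA using Subgroup.closure_induction with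
  | mem t ht =>
    obtain ⟨w, χ, hw, hχ, hχw, ht⟩ := ht
    have hd : cz w ⬝ᵥ cz χ = 0 := by rw [cz_dot_cz, dotProduct_comm]; exact hχw
    refine ⟨tL (cz χ) (cz w) (-1), fun x => ?_⟩
    rw [conj_uE, tL_mulVec hd, cz_dot_e0, mul_zero, zero_smul, add_zero, tL_inv, neg_neg,
      tL_vecMul hd, one_mul, cz_dot_cz, ← cz_smul, ← cz_add]
    unfold uE
    congr 2
    rw [ht, add_mulVec, one_mulVec, vecMulVec_mulVec, dotProduct_comm]
    simp
  | one =>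
    refine ⟨1, fun x => ?_⟩
    simp
  | mul A B _ _ ihA ihB =>
    obtain ⟨gA, hgA⟩ := ihA
    obtain ⟨gB, hgB⟩ := ihB
    refine ⟨gA * gB, fun x => ?_⟩
    rw [Matrix.SpecialLinearGroup.coe_mul, ← mulVec_mulVec, ← hgA, ← hgB]
    group
  | inv A _ ihA =>
    obtain ⟨gA, hgA⟩ := ihA
    refine ⟨gA⁻¹, fun x => ?_⟩
    have h1 := hgA ((↑(A⁻¹) : Matrix (Fin k) (Fin k) F) *ᵥ x)
    rw [mulVec_mulVec, Cfsg.Agent.Lib.Helper87.sl_mul_inv, one_mulVec] at h1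
    rw [← h1]
    group

/-- the inverse-transpose automorphism interchanges centres and axes -/
theorem it_tL {n : ℕ} (a φ : Fin n → F) (h : φ ⬝ᵥ a = 0) :
    Cfsg.Agent.Lib.Helper53.AutPSL.it (tL a φ 1) = (tL φ a 1)⁻¹ := by
  have h' : a ⬝ᵥ φ = 0 := by rw [dotProduct_comm]; exact h
  rw [tL_inv φ a 1, Cfsg.Agent.Lib.Helper53.AutPSL.it_apply, tL_inv a φ 1]
  apply sl_ext
  rw [tL_coe h']
  show ((tL a φ (-1) : Matrix.SpecialLinearGroup (Fin n) F) : Matrix (Fin n) (Fin n) F).transpose = _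
  rw [tL_coe h, Matrix.transpose_add, Matrix.transpose_one, Matrix.transpose_smul,
    Matrix.transpose_vecMulVec]

/-- the orthogonal complement of an additive subgroup of `F^k` with respect to the pairing
`(w, x) ↦ τ (w ⬝ᵥ x)` -/
def perp {p : ℕ} (τ : F →+ ZMod p) (W : AddSubgroup (Fin k → F)) : AddSubgroup (Fin k → F) where
  carrier := {w | ∀ x ∈ W, τ (w ⬝ᵥ x) = 0}
  zero_mem' := by
    intro x _
    rw [zero_dotProduct, map_zero]
  add_mem' := by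
    intro a b ha hb x hx
    rw [add_dotProduct, map_add, ha x hx, hb x hx, add_zero]
  neg_mem' := by
    intro a ha x hx
    rw [neg_dotProduct, map_neg, ha x hx, neg_zero]

theorem mem_perp {p : ℕ} (τ : F →+ ZMod p) (W : AddSubgroup (Fin k → F)) (w : Fin k → F) :
    w ∈ perp τ W ↔ ∀ x ∈ W, τ (w ⬝ᵥ x) = 0 := Iff.rfl

end Std

end Cfsg.Agent.Lib.Helper45.MinIdx
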