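import Mathlib
import Cfsg.Agent.Lib.Helper45.HADefs

/-! HALL-ALT piece DpiA (project of helper45; S2538/S2535/S2534).
Filled in by helper64 (was a placeholder); theorem names and statements byte-identical;
same namespace; auxiliary lemmas go ABOVE the theorems and MUST start with the prefix `dpia_`.
Paper proofs: see the note (topic "HALL-ALT"). -/

set_option autoImplicit false

namespace Cfsg.Agent.Lib.Helper45.HA

open Equiv Cfsg.Agent.Lib.Helper13

theorem dpia_conj_one {G : Type*} [Group G] (H : Subgroup G) :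
    H = H.map (MulAut.conj (1 : G)).toMonoidHom := by
  ext x
  simp

theorem dpi_of_single {G : Type*} [Group G] [Finite G] (π : Set ℕ)
    (hs : ∀ r s : ℕ, r.Prime → s.Prime → r ∈ π → s ∈ π → r ∣ Nat.card G → s ∣ Nat.card G → r = s) :
    Cfsg.IsDPiGroup π G := by
  intro H K hH hK
  by_cases hex : ∃ p : ℕ, p.Prime ∧ p ∈ π ∧ p ∣ Nat.card G
  · obtain ⟨p, hp, hpπ, hpG⟩ := hex
    have hfact : Fact p.Prime := ⟨hp⟩
    have hpg : ∀ L : Subgroup G, Cfsg.IsPiSubgroup π L → IsPGroup p L := by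
      intro L hL
      have h1 : Nat.card L = p ^ (Nat.card L).primeFactorsList.length :=
        Nat.eq_prime_pow_of_unique_prime_dvd Nat.card_pos.ne' (fun {d} hd hdL =>
          hs d p hd hp (hL d hd hdL) hpπ (hdL.trans (Subgroup.card_subgroup_dvd_card L)) hpG)
      exact IsPGroup.of_card h1
    have hpi : ∀ L : Subgroup G, IsPGroup p L → Cfsg.IsPiSubgroup π L := by
      intro L hL q hq hqL
      obtain ⟨k, hk⟩ := IsPGroup.iff_card.mp hL
      rw [hk] at hqL
      have h2 := (Nat.prime_dvd_prime_iff_eq hq hp).mp (hq.dvd_of_dvd_pow hqL)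
      rw [h2]
      exact hpπ
    have hsyl : ∀ L : Subgroup G, Maximal (Cfsg.IsPiSubgroup π) L →
        ∃ P : Sylow p G, (P : Subgroup G) = L := by
      intro L hL
      obtain ⟨P, hP⟩ := (hpg L hL.1).exists_le_sylow
      exact ⟨P, le_antisymm (hL.2 (hpi _ P.2) hP) hP⟩
    obtain ⟨P, rfl⟩ := hsyl H hH
    obtain ⟨Q, rfl⟩ := hsyl K hK
    obtain ⟨g, hg⟩ := MulAction.exists_smul_eq G P Q
    refine ⟨g, ?_⟩
    rw [← hg, Sylow.coe_subgroup_smul]
    rfl
  · have htriv : ∀ L : Subgroup G, Cfsg.IsPiSubgroup π L → L = ⊥ := by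
      intro L hL
      by_contra hne
      have h1 : Nat.card L ≠ 1 := fun h => hne (Subgroup.card_eq_one.mp h)
      obtain ⟨q, hq, hqL⟩ := Nat.exists_prime_and_dvd h1
      exact hex ⟨q, hq, hL q hq hqL, hqL.trans (Subgroup.card_subgroup_dvd_card L)⟩
    rw [htriv H hH.1, htriv K hK.1]
    exact ⟨1, dpia_conj_one ⊥⟩

theorem dpi_of_all {G : Type*} [Group G] [Finite G] (π : Set ℕ)
    (h : ∀ r : ℕ, r.Prime → r ∣ Nat.card G → r ∈ π) : Cfsg.IsDPiGroup π G := by
  intro H K hH hK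
  have htop : Cfsg.IsPiSubgroup π (⊤ : Subgroup G) := by
    intro p hp hdvd
    rw [Subgroup.card_top] at hdvd
    exact h p hp hdvd
  have hH' : H = ⊤ := top_le_iff.mp (hH.2 htop le_top)
  have hK' : K = ⊤ := top_le_iff.mp (hK.2 htop le_top)
  refine ⟨1, ?_⟩
  rw [hK', hH']
  exact dpia_conj_one ⊤

end Cfsg.Agent.Lib.Helper45.HA
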