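import Mathlib
import Cfsg.Agent.Lib.Helper45.HADefs

/-! HALL-ALT piece RSeven (project of helper45; S2538/S2535/S2534).
PLACEHOLDER: replace the `sorry`(s) in THIS file; keep theorem names and statements byte-identical;
keep the namespace; auxiliary lemmas go ABOVE the theorems and MUST start with the prefix `r7_`.
Paper proofs: see the note (topic "HALL-ALT"). -/

set_option autoImplicit false

namespace Cfsg.Agent.Lib.Helper45.HA

open Equiv Cfsg.Agent.Lib.Helper13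

/-- the twelve elements of `A₄` acting on the six 2-subsets of a 4-set (`0..5`), fixing `6`,
as tables -/
def r7_f : Fin 12 → Fin 7 → Fin 7 :=
  ![![0, 1, 2, 3, 4, 5, 6],
    ![2, 3, 4, 5, 0, 1, 6],
    ![4, 5, 0, 1, 2, 3, 6],
    ![0, 1, 3, 2, 5, 4, 6],
    ![5, 4, 0, 1, 3, 2, 6],
    ![3, 2, 5, 4, 0, 1, 6],
    ![2, 3, 5, 4, 1, 0, 6],
    ![5, 4, 1, 0, 2, 3, 6],
    ![1, 0, 2, 3, 5, 4, 6],
    ![4, 5, 1, 0, 3, 2, 6],
    ![3, 2, 4, 5, 1, 0, 6],
    ![1, 0, 3, 2, 4, 5, 6]]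

/-- the index of the inverse -/
def r7_I : Fin 12 → Fin 12 := ![0, 2, 1, 3, 6, 9, 4, 10, 8, 5, 7, 11]

/-- the multiplication table -/
def r7_T : Fin 12 → Fin 12 → Fin 12 :=
  ![![0, 1, 2, 3, 4, 5, 6, 7, 8, 9, 10, 11],
    ![1, 2, 0, 6, 8, 7, 9, 11, 10, 3, 4, 5],
    ![2, 0, 1, 9, 10, 11, 3, 5, 4, 6, 8, 7],
    ![3, 5, 4, 0, 2, 1, 10, 9, 11, 7, 6, 8],
    ![4, 3, 5, 7, 6, 8, 0, 1, 2, 10, 11, 9],
    ![5, 4, 3, 10, 11, 9, 7, 8, 6, 0, 2, 1],
    ![6, 7, 8, 1, 0, 2, 4, 3, 5, 11, 9, 10],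
    ![7, 8, 6, 4, 5, 3, 11, 10, 9, 1, 0, 2],
    ![8, 6, 7, 11, 9, 10, 1, 2, 0, 4, 5, 3],
    ![9, 11, 10, 2, 1, 0, 8, 6, 7, 5, 3, 4],
    ![10, 9, 11, 5, 3, 4, 2, 0, 1, 8, 7, 6],
    ![11, 10, 9, 8, 7, 6, 5, 4, 3, 2, 1, 0]]

set_option maxRecDepth 100000 in
theorem r7_left : ∀ (i : Fin 12) (x : Fin 7), r7_f (r7_I i) (r7_f i x) = x := by decide +kernel

set_option maxRecDepth 100000 in
theorem r7_right : ∀ (i : Fin 12) (x : Fin 7), r7_f i (r7_f (r7_I i) x) = x := by decide +kernel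

/-- the twelve permutations -/
def r7_L (i : Fin 12) : Perm (Fin 7) := ⟨r7_f i, r7_f (r7_I i), r7_left i, r7_right i⟩

set_option maxRecDepth 100000 in
theorem r7_tabf : ∀ (i j : Fin 12) (x : Fin 7), r7_f i (r7_f j x) = r7_f (r7_T i j) x := by
  decide +kernel

theorem r7_tab (i j : Fin 12) : r7_L i * r7_L j = r7_L (r7_T i j) :=
  Equiv.ext fun x => r7_tabf i j x

set_option maxRecDepth 100000 in
theorem r7_onef : ∀ x : Fin 7, r7_f 0 x = x := by decide +kernel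

theorem r7_one : r7_L 0 = 1 := Equiv.ext fun x => r7_onef x

set_option maxRecDepth 100000 in
theorem r7_invT : ∀ i : Fin 12, r7_T i (r7_I i) = 0 := by decide +kernel

set_option maxRecDepth 100000 in
theorem r7_ord : ∀ i : Fin 12, r7_T i i = 0 ∨ r7_T i (r7_T i i) = 0 := by decide +kernel

set_option maxRecDepth 100000 in
theorem r7_even : ∀ i : Fin 12, ∃ j k : Fin 12, r7_T j k = i ∧ r7_T j (r7_T j j) = 0 ∧
    r7_T k (r7_T k k) = 0 := by decide +kernel

set_option maxRecDepth 100000 in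
theorem r7_trans : ∀ a b : Fin 7, a ≠ 6 → b ≠ 6 → ∃ i : Fin 12, r7_f i a = b := by
  decide +kernel

theorem r7_sign_cube (σ : Perm (Fin 7)) (h : σ * (σ * σ) = 1) : Equiv.Perm.sign σ = 1 := by
  have h' := congrArg Equiv.Perm.sign h
  rw [Equiv.Perm.sign_mul, Equiv.Perm.sign_mul, Equiv.Perm.sign_one] at h'
  rcases Int.units_eq_one_or (Equiv.Perm.sign σ) with h1 | h1
  · exact h1
  · rw [h1] at h'
    exact absurd h' (by decide)

theorem r7_cube (j : Fin 12) (h : r7_T j (r7_T j j) = 0) : r7_L j * (r7_L j * r7_L j) = 1 := by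
  rw [r7_tab, r7_tab, h, r7_one]

/-- the subgroup with the elements `r7_L i` -/
def r7_R : Subgroup (Perm (Fin 7)) where
  carrier := {σ | ∃ i : Fin 12, σ = r7_L i}
  mul_mem' := by
    rintro a b ⟨i, rfl⟩ ⟨j, rfl⟩
    exact ⟨r7_T i j, r7_tab i j⟩
  one_mem' := ⟨0, r7_one.symm⟩
  inv_mem' := by
    rintro a ⟨i, rfl⟩
    refine ⟨r7_I i, ?_⟩
    apply inv_eq_of_mul_eq_one_right
    rw [r7_tab, r7_invT, r7_one]

/-- a `{2,3}`-subgroup of `A_7` without invariant 3-set (even permutations fixing 6 and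
preserving the partition `{0,1},{2,3},{4,5}`) -/
theorem R_seven (π : Set ℕ) (hCd : HS.Cd π 7) :
    ∃ R : Subgroup (Perm (Fin 7)), R ≤ alternatingGroup (Fin 7) ∧
      (∀ p : ℕ, p.Prime → p ∣ Nat.card R → p ∈ π) ∧
      ∀ s : Set (Fin 7), s.ncard = 3 → ∃ σ ∈ R, ∃ x ∈ s, σ x ∉ s := by
  refine ⟨r7_R, ?_, ?_, ?_⟩
  · rintro σ ⟨i, rfl⟩
    rw [Equiv.Perm.mem_alternatingGroup]
    obtain ⟨j, k, hjk, hj, hk⟩ := r7_even i
    rw [← hjk, ← r7_tab, Equiv.Perm.sign_mul, r7_sign_cube _ (r7_cube j hj),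
      r7_sign_cube _ (r7_cube k hk), one_mul]
  · intro p hp hdvd
    have : Fact p.Prime := ⟨hp⟩
    obtain ⟨σ, hσ⟩ := exists_prime_orderOf_dvd_card' p hdvd
    obtain ⟨i, hi⟩ := σ.2
    have h23 : p = 2 ∨ p = 3 := by
      rcases r7_ord i with h | h
      · left
        have h2 : σ ^ 2 = 1 := by
          apply Subtype.ext
          show (σ : Perm (Fin 7)) ^ 2 = 1
          rw [hi, pow_two, r7_tab, h, r7_one]
        have hd : p ∣ 2 := hσ ▸ orderOf_dvd_of_pow_eq_one h2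
        exact (Nat.prime_dvd_prime_iff_eq hp Nat.prime_two).1 hd
      · right
        have h3 : σ ^ 3 = 1 := by
          apply Subtype.ext
          show (σ : Perm (Fin 7)) ^ 3 = 1
          rw [hi, pow_succ', pow_two, r7_tab, r7_tab, h, r7_one]
        have hd : p ∣ 3 := hσ ▸ orderOf_dvd_of_pow_eq_one h3
        exact (Nat.prime_dvd_prime_iff_eq hp Nat.prime_three).1 hd
    have hp7 : p ≤ 7 := by rcases h23 with h | h <;> omega
    exact (hCd.2 p hp hp7).2 h23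
  · intro s hs
    by_contra hcon
    push Not at hcon
    by_cases h6 : ∃ i ∈ s, i ≠ 6
    · obtain ⟨i, hi, hi6⟩ := h6
      have hall : ({6}ᶜ : Set (Fin 7)) ⊆ s := by
        intro j hj
        obtain ⟨k, e⟩ := r7_trans i j hi6 hj
        rw [← e]
        exact hcon (r7_L k) ⟨k, rfl⟩ i hi
      have h1 := Set.ncard_le_ncard hall (Set.toFinite s)
      have h2 := Set.ncard_add_ncard_compl ({6} : Set (Fin 7))
      rw [Set.ncard_singleton, Nat.card_eq_fintype_card, Fintype.card_fin] at h2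
      omega
    · push Not at h6
      have hsub : s ⊆ ({6} : Set (Fin 7)) := fun i hi => h6 i hi
      have h1 := Set.ncard_le_ncard hsub (Set.toFinite _)
      rw [Set.ncard_singleton] at h1
      omega

end Cfsg.Agent.Lib.Helper45.HA
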