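import Mathlib
import Cfsg.Agent.Lib.Helper45.MinIdxA
import Cfsg.Agent.Lib.Helper8.MinIdxAR
import Cfsg.Agent.Lib.Helper21.MinIdxOB
import Cfsg.Agent.Lib.Helper28.MinIdxLTINV
import Cfsg.Agent.Lib.Helper42.MinIdxTR
import Cfsg.Agent.Lib.Helper43.MinIdxH5D
import Cfsg.Agent.Lib.Helper5.MinIdxLTK
import Cfsg.Agent.Lib.Helper5.MinIdxPT
import Cfsg.Agent.Lib.Helper51.MinIdxLTFIN
import Cfsg.Agent.Lib.Helper57.MinIdxHYP
import Cfsg.Agent.Lib.Helper68.MinIdxLTPP
import Cfsg.Agent.Lib.Helper73.MinIdxH5B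
import Cfsg.Agent.Lib.Helper75.MinIdxGEN
import Cfsg.Agent.Lib.Helper78.MinIdxH5C
import Cfsg.Agent.Lib.Helper92.MinIdxH5A
import Cfsg.Agent.Lib.Helper94.MinIdxH5E

/-!
# S2140: minimal index of proper subgroups of `PSL_n(q)`, `n ≥ 3` (assembly)

Pieces by helpers (job board): see the imports.
-/

set_option autoImplicit false

namespace Cfsg.Agent.Lib.Helper45.MinIdx

open Matrix Cfsg.Agent.Lib.Helper50

/-! ## Assembly -/

theorem exists_tau (F : Type*) [Field F] [Fintype F] :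
    ∃ (p : ℕ) (_ : Fact p.Prime) (_ : CharP F p) (τ : F →+ ZMod p), τ ≠ 0 := by
  have hp : Fact (ringChar F).Prime := ⟨CharP.char_is_prime F (ringChar F)⟩
  refine ⟨ringChar F, hp, ringChar.charP F, ?_⟩
  let _ : Algebra (ZMod (ringChar F)) F := ZMod.algebra F (ringChar F)
  obtain ⟨b, hb⟩ := FiniteField.trace_to_zmod_nondegenerate F (a := (1 : F)) one_ne_zero
  refine ⟨(Algebra.trace (ZMod (ringChar F)) F).toAddMonoidHom, ?_⟩
  intro h
  apply hb
  have := congrArg (fun f : F →+ ZMod (ringChar F) => f (1 * b)) h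
  simpa using this

/-- Lemma T -/
theorem lemmaT {F : Type*} [Field F] [Fintype F] (k : ℕ) (hk : 2 ≤ k) (t : ℕ)
    (W : Fin t → AddSubgroup (Fin k → F))
    (hinv : ∀ A : Matrix.SpecialLinearGroup (Fin k) F, ∃ π : Equiv.Perm (Fin t), ∀ i x,
      ((A : Matrix (Fin k) (Fin k) F) *ᵥ x ∈ W (π i) ↔ x ∈ W i))
    (hsum : (∑ i, (W i).index) * (Fintype.card F - 1) < Fintype.card F ^ (k + 1) - 1) :
    (∀ i, W i = ⊥ ∨ W i = ⊤) ∨
    (∀ i, ∃ w : Fin k → F, w ≠ 0 ∧ ∀ x, x ∈ W i ↔ w ⬝ᵥ x = 0) := by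
  obtain ⟨p, hp, hcp, τ, hτ⟩ := exists_tau F
  have hinvP := Cfsg.Agent.Lib.Helper28.MinIdx.perp_inv τ k t W hinv
  obtain ⟨κ, hκ, hcount⟩ := Cfsg.Agent.Lib.Helper5.MinIdx.kappa_count k hk t (fun i => perp τ (W i)) hinvP
  have hcard : ∀ i, Nat.card (perp τ (W i)) = (W i).index := fun i => Cfsg.Agent.Lib.Helper68.MinIdx.card_perp p τ hτ k (W i)
  have hsum' : (∑ i, Nat.card (perp τ (W i))) * (Fintype.card F - 1) <
      Fintype.card F ^ (k + 1) - 1 := by
    rw [Finset.sum_congr rfl (fun i _ => hcard i)]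
    exact hsum
  rcases Cfsg.Agent.Lib.Helper51.MinIdx.dual_family_fin k hk t (fun i => perp τ (W i)) hinvP κ hκ hcount hsum' with h | h
  · left
    intro i
    have hpp := Cfsg.Agent.Lib.Helper68.MinIdx.perp_perp p τ hτ k (W i)
    rcases h i with h1 | h1
    · right
      rw [← hpp, h1]
      exact (Cfsg.Agent.Lib.Helper68.MinIdx.perp_bot_top p τ hτ k).1
    · left
      rw [← hpp, h1]
      exact (Cfsg.Agent.Lib.Helper68.MinIdx.perp_bot_top p τ hτ k).2
  · right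
    intro i
    obtain ⟨w, hw, hP⟩ := h i
    refine ⟨w, hw, fun x => ?_⟩
    rw [← Cfsg.Agent.Lib.Helper68.MinIdx.perp_perp p τ hτ k (W i)]
    exact Cfsg.Agent.Lib.Helper68.MinIdx.mem_perp_line τ hτ k (perp τ (W i)) w hP x

theorem card_fin_succ (k : ℕ) : Fintype.card (Fin (k + 1)) = k + 1 := Fintype.card_fin _

theorem dichU_of_index {F : Type*} [Field F] [Fintype F] (k : ℕ) (hk : 2 ≤ k)
    (H : Subgroup (Matrix.SpecialLinearGroup (Fin (k + 1)) F))
    (hidx : H.index * (Fintype.card F - 1) < Fintype.card F ^ (k + 1) - 1) :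
    ∀ a : Fin (k + 1) → F, a ≠ 0 → (∀ φ : Fin (k + 1) → F, φ ⬝ᵥ a = 0 → tL a φ 1 ∈ H) ∨
      (∀ φ : Fin (k + 1) → F, φ ⬝ᵥ a = 0 → tL a φ 1 ∈ H → φ = 0) := by
  obtain ⟨t, W, hsumW, hinvW, hW⟩ :=
    Cfsg.Agent.Lib.Helper21.MinIdx.orbit_family k H uE uE_add (exists_norm hk)
  have hsum : (∑ i, (W i).index) * (Fintype.card F - 1) < Fintype.card F ^ (k + 1) - 1 := by
    rw [hsumW]
    exact hidx
  rcases lemmaT k hk t W hinvW hsum with h | h
  · exact Cfsg.Agent.Lib.Helper42.MinIdx.dich_of_family k (by omega) H t W hW h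
  · exfalso
    exact Cfsg.Agent.Lib.Helper57.MinIdx.hyp_false (by rw [card_fin_succ]; omega) H (Cfsg.Agent.Lib.Helper42.MinIdx.hyp_of_family k (by omega) H t W hW h)

theorem dichA_of_index {F : Type*} [Field F] [Fintype F] (k : ℕ) (hk : 2 ≤ k)
    (H : Subgroup (Matrix.SpecialLinearGroup (Fin (k + 1)) F))
    (hidx : H.index * (Fintype.card F - 1) < Fintype.card F ^ (k + 1) - 1) :
    ∀ φ : Fin (k + 1) → F, φ ≠ 0 → (∀ a : Fin (k + 1) → F, φ ⬝ᵥ a = 0 → tL a φ 1 ∈ H) ∨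
      (∀ a : Fin (k + 1) → F, φ ⬝ᵥ a = 0 → tL a φ 1 ∈ H → a = 0) := by
  have hsurj : Function.Surjective
      ((Cfsg.Agent.Lib.Helper53.AutPSL.it :
        MulAut (Matrix.SpecialLinearGroup (Fin (k + 1)) F)).toMonoidHom) :=
    (Cfsg.Agent.Lib.Helper53.AutPSL.it :
        MulAut (Matrix.SpecialLinearGroup (Fin (k + 1)) F)).surjective
  have hidx' : (H.comap ((Cfsg.Agent.Lib.Helper53.AutPSL.it :
        MulAut (Matrix.SpecialLinearGroup (Fin (k + 1)) F)).toMonoidHom)).index *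
      (Fintype.card F - 1) < Fintype.card F ^ (k + 1) - 1 := by
    rw [Subgroup.index_comap_of_surjective H hsurj]
    exact hidx
  have h := dichU_of_index k hk _ hidx'
  intro φ hφ
  have key : ∀ a : Fin (k + 1) → F, φ ⬝ᵥ a = 0 →
      (tL φ a 1 ∈ H.comap ((Cfsg.Agent.Lib.Helper53.AutPSL.it :
        MulAut (Matrix.SpecialLinearGroup (Fin (k + 1)) F)).toMonoidHom) ↔ tL a φ 1 ∈ H) := by
    intro a ha
    rw [Subgroup.mem_comap]
    show Cfsg.Agent.Lib.Helper53.AutPSL.it (tL φ a 1) ∈ H ↔ _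
    rw [it_tL φ a (by rw [dotProduct_comm]; exact ha), H.inv_mem_iff]
  rcases h φ hφ with h1 | h1
  · left
    intro a ha
    exact (key a ha).1 (h1 a (by rw [dotProduct_comm]; exact ha))
  · right
    intro a ha hm
    exact h1 a (by rw [dotProduct_comm]; exact ha) ((key a ha).2 hm)

theorem index_lt_two_pow {m q k : ℕ} (hq : 2 ≤ q) (h : m * (q - 1) < q ^ (k + 1) - 1) :
    m < 2 * q ^ k := by
  obtain ⟨q', rfl⟩ : ∃ q', q = q' + 2 := ⟨q - 2, by omega⟩
  by_contra hlt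
  push Not at hlt
  have h1 : 2 * (q' + 2) ^ k * (q' + 2 - 1) ≤ m * (q' + 2 - 1) := Nat.mul_le_mul_right _ hlt
  have h2 : (q' + 2) ^ (k + 1) = (q' + 2) ^ k * (q' + 2) := pow_succ _ _
  have h3 : q' + 2 - 1 = q' + 1 := by omega
  rw [h3] at h1 h
  have h4 : (q' + 2) ^ k * (q' + 2) ≤ 2 * (q' + 2) ^ k * (q' + 1) := by
    have : (q' + 2) ^ k * (q' + 2) + (q' + 2) ^ k * q' = 2 * (q' + 2) ^ k * (q' + 1) := by ring
    omega
  omega

theorem sl_core {F : Type*} [Field F] [Fintype F] (k : ℕ) (hk : 2 ≤ k)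
    (H : Subgroup (Matrix.SpecialLinearGroup (Fin (k + 1)) F)) (hH : H ≠ ⊤)
    (hidx : H.index * (Fintype.card F - 1) < Fintype.card F ^ (k + 1) - 1) :
    (∀ a φ : Fin (k + 1) → F, a ≠ 0 → φ ⬝ᵥ a = 0 → tL a φ 1 ∈ H → φ = 0) ∧
    (∀ g : Matrix.SpecialLinearGroup (Fin (k + 1)) F, ∃ φ : Fin (k + 1) → F,
      φ ⬝ᵥ (Pi.single 0 1 : Fin (k + 1) → F) = 0 ∧ tL (Pi.single 0 1) φ 1 * g ∈ H) := by
  have hU := dichU_of_index k hk H hidx
  have hA := dichA_of_index k hk H hidx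
  have hfree : ∀ a φ : Fin (k + 1) → F, a ≠ 0 → φ ⬝ᵥ a = 0 → tL a φ 1 ∈ H → φ = 0 := by
    intro a φ ha h hm
    by_contra hφ
    exact hH (Cfsg.Agent.Lib.Helper75.MinIdx.gen_top (by rw [card_fin_succ]; omega) H hU hA a φ ha hφ h hm)
  refine ⟨hfree, ?_⟩
  have hfree2 : ∀ (g : Matrix.SpecialLinearGroup (Fin (k + 1)) F) (x : Fin k → F),
      g⁻¹ * uE x * g ∈ H → x = 0 := by
    intro g x hm
    have h1 := conj_uE g⁻¹ x
    have h3 := conj_dot (cz_dot_e0 (F := F) x) g⁻¹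
    rw [inv_inv] at h1 h3
    rw [h1] at hm
    have h2 := hfree _ _ (mulVec_ne_zero' g⁻¹ e0_ne_zero) h3 hm
    have h4 : cz x = 0 := by
      have := congrArg (fun z => z ᵥ* (↑(g⁻¹) : Matrix (Fin (k + 1)) (Fin (k + 1)) F)) h2
      simpa only [vecMul_vecMul, Cfsg.Agent.Lib.Helper87.sl_mul_inv, vecMul_one, zero_vecMul]
        using this
    apply cz_injective (F := F)
    rw [h4, cz_zero]
  have hq : H.index < 2 * Fintype.card F ^ k :=
    index_lt_two_pow Fintype.one_lt_card hidx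
  intro g
  obtain ⟨x, hx⟩ := Cfsg.Agent.Lib.Helper8.MinIdx.exists_mem_of_free k H uE uE_add hfree2 hq g
  refine ⟨cz (-x), cz_dot_e0 _, ?_⟩
  rw [uE_inv] at hx
  exact hx

theorem exists_ne_zero_one {F : Type*} [Field F] [Fintype F] (h : Fintype.card F ≠ 2) :
    ∃ d : F, d ≠ 0 ∧ d ≠ 1 := by
  classical
  by_contra hcon
  push Not at hcon
  apply h
  apply le_antisymm
  · have h1 : (Finset.univ : Finset F) ⊆ {0, 1} := by
      intro d _
      by_cases hd : d = 0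
      · simp [hd]
      · simp [hcon d hd]
    calc Fintype.card F = (Finset.univ : Finset F).card := rfl
      _ ≤ ({0, 1} : Finset F).card := Finset.card_le_card h1
      _ ≤ 2 := Finset.card_le_two
  · exact Fintype.one_lt_card

theorem sl_main {F : Type*} [Field F] [Fintype F] (k : ℕ) (hk : 2 ≤ k)
    (hexc : ¬ (k = 3 ∧ Fintype.card F = 2))
    (H : Subgroup (Matrix.SpecialLinearGroup (Fin (k + 1)) F)) (hH : H ≠ ⊤)
    (hidx : H.index * (Fintype.card F - 1) < Fintype.card F ^ (k + 1) - 1) : False := by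
  obtain ⟨hfree, hcompl⟩ := sl_core k hk H hH hidx
  rcases (by omega : k = 2 ∨ k = 3 ∨ 4 ≤ k) with rfl | rfl | hk4
  · by_cases h2 : (2 : F) = 0
    · exact Cfsg.Agent.Lib.Helper94.MinIdx.compl_three_even h2 H hfree hcompl
    · exact Cfsg.Agent.Lib.Helper43.MinIdx.compl_three_odd h2 H hfree hcompl
  · by_cases h2 : (2 : F) = 0
    · have hq2 : Fintype.card F ≠ 2 := fun h => hexc ⟨rfl, h⟩
      obtain ⟨d, hd0, hd1⟩ := exists_ne_zero_one hq2
      have hd2 : d * d ≠ 1 := by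
        intro h
        have h5 : (d - 1) * (d - 1) = 0 := by linear_combination h + (1 - d) * h2
        rcases mul_self_eq_zero.1 h5 with h6
        exact hd1 (sub_eq_zero.1 h6)
      exact Cfsg.Agent.Lib.Helper78.MinIdx.compl_four_diag d hd0 hd1 hd2 (Function.Embedding.refl (Fin 4)) H hfree hcompl
    · exact Cfsg.Agent.Lib.Helper73.MinIdx.compl_four_odd h2 (Function.Embedding.refl (Fin 4)) H hfree hcompl
  · have hle : 5 ≤ k + 1 := by omega
    have h0 : (Fin.castLEEmb hle) (0 : Fin 5) = (0 : Fin (k + 1)) := by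
      apply Fin.ext
      simp
    refine Cfsg.Agent.Lib.Helper92.MinIdx.compl_five (Fin.castLEEmb hle) H hfree ?_
    rw [h0]
    exact hcompl

theorem psl_main {F : Type*} [Field F] [Fintype F] {q : ℕ} (hF : Fintype.card F = q) (n : ℕ)
    (hn : 3 ≤ n) (hexc : ¬ (n = 4 ∧ q = 2)) :
    (∀ H : Subgroup (Matrix.ProjectiveSpecialLinearGroup (Fin n) F), H ≠ ⊤ →
      (q ^ n - 1) / (q - 1) ≤ H.index) ∧
    (∃ H : Subgroup (Matrix.ProjectiveSpecialLinearGroup (Fin n) F),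
      H.index = (q ^ n - 1) / (q - 1)) := by
  subst hF
  refine ⟨?_, Cfsg.Agent.Lib.Helper5.MinIdx.exists_index_eq n hn⟩
  intro H hH
  by_contra hlt
  push Not at hlt
  obtain ⟨k, rfl⟩ : ∃ k, n = k + 1 := ⟨n - 1, by omega⟩
  have hk : 2 ≤ k := by omega
  have hsurj : Function.Surjective (QuotientGroup.mk' (Subgroup.center
      (Matrix.SpecialLinearGroup (Fin (k + 1)) F))) := QuotientGroup.mk'_surjective _
  have hH' : H.comap (QuotientGroup.mk' (Subgroup.center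
      (Matrix.SpecialLinearGroup (Fin (k + 1)) F))) ≠ ⊤ := by
    intro h
    apply hH
    rw [eq_top_iff]
    intro x _
    obtain ⟨y, rfl⟩ := hsurj x
    have hy : y ∈ H.comap (QuotientGroup.mk' (Subgroup.center
      (Matrix.SpecialLinearGroup (Fin (k + 1)) F))) := by
      rw [h]
      exact Subgroup.mem_top y
    exact hy
  have hq1 : 0 < Fintype.card F - 1 := by
    have := Fintype.one_lt_card (α := F)
    omega
  have hidx : (H.comap (QuotientGroup.mk' (Subgroup.center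
      (Matrix.SpecialLinearGroup (Fin (k + 1)) F)))).index * (Fintype.card F - 1) <
      Fintype.card F ^ (k + 1) - 1 := by
    rw [Subgroup.index_comap_of_surjective H hsurj]
    have h1 : H.index + 1 ≤ (Fintype.card F ^ (k + 1) - 1) / (Fintype.card F - 1) := hlt
    have h2 := (Nat.le_div_iff_mul_le hq1).1 h1
    have h3 : (H.index + 1) * (Fintype.card F - 1) =
        H.index * (Fintype.card F - 1) + (Fintype.card F - 1) := by ring
    omega
  exact sl_main k hk (fun h => hexc ⟨by omega, h.2⟩) _ hH' hidx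

end Cfsg.Agent.Lib.Helper45.MinIdx
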