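import Mathlib
import Cfsg.Agent.Lib.Helper54.DkMax
import Cfsg.Agent.S0805
import Cfsg.Agent.Lib.Helper45.PslMaxArith

set_option autoImplicit false

/-!
`PSL₂(K)` is a maximal subgroup of `PSL₂(F)` for `|F| = |K|^r`, `r` prime (`r` odd if `|K|` is
odd), `|K| ≥ 3`.  Existence of the subgroup from `S0805`, maximality from the coarse Dickson
list `dkm_cases` of `Lib/Helper54/DkMax` and the arithmetic of `PslMaxArith`.
-/

namespace Cfsg.Agent.Lib.Helper45.PslMax

open Matrix Cfsg.Agent.S0809 Cfsg.Agent.Lib.Helper19.Dk Cfsg.Agent.Lib.Helper54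

section Witness

variable {K : Type*} [Field K]

theorem pm_prj_eq_01 (A B : S2 K) (h : prj K A = prj K B) : A 0 1 * B 0 0 = A 0 0 * B 0 1 := by
  have h1 : prj K (A * B⁻¹) = 1 := by rw [map_mul, map_inv, h, mul_inv_cancel]
  have h2 := ((prj_eq_one_iff _).1 h1).1
  simp only [mul01, inv01, inv11] at h2
  linear_combination h2

theorem pm_prj_eq_10 (A B : S2 K) (h : prj K A = prj K B) : A 1 0 * B 1 1 = A 1 1 * B 1 0 := by
  have h1 : prj K (A * B⁻¹) = 1 := by rw [map_mul, map_inv, h, mul_inv_cancel]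
  have h2 := ((prj_eq_one_iff _).1 h1).2.1
  simp only [mul10, inv00, inv10] at h2
  linear_combination h2

/-- squares do not commute in `PSL₂(K)`, odd characteristic -/
theorem pm_sq_odd (h2 : (2 : K) ≠ 0) :
    ∃ x y : P2 K, (x * x) * (y * y) ≠ (y * y) * (x * x) := by
  refine ⟨prj K (uu 1), prj K (ll 1), fun h => ?_⟩
  have h' : prj K ((uu 1 * uu 1) * (ll 1 * ll 1)) = prj K ((ll 1 * ll 1) * (uu 1 * uu 1)) := by
    simpa only [map_mul] using h
  have h3 := pm_prj_eq_01 _ _ h'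
  simp only [mul00, mul01, mul10, mul11, uu_00, uu_01, uu_10, uu_11, ll_00, ll_01, ll_10,
    ll_11] at h3
  have h8 : (2 : K) ^ 3 = 0 := by linear_combination (-1 : K) * h3
  exact h2 (pow_eq_zero_iff (by norm_num) |>.1 h8)

/-- squares do not commute in `PSL₂(K)`, characteristic 2, `|K| > 2` -/
theorem pm_sq_even (h2 : (2 : K) = 0) (u : K) (hu0 : u ≠ 0) (hu1 : u ≠ 1) :
    ∃ x y : P2 K, (x * x) * (y * y) ≠ (y * y) * (x * x) := by
  have d1 : (0 : K) * 1 - 1 * 1 = 1 := by linear_combination (-1 : K) * h2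
  have d2 : u * (u + 1) - (u ^ 2 + u + 1) * 1 = 1 := by linear_combination (-1 : K) * h2
  refine ⟨prj K (mk2 0 1 1 1 d1), prj K (mk2 u (u ^ 2 + u + 1) 1 (u + 1) d2), fun h => ?_⟩
  have h' : prj K ((mk2 0 1 1 1 d1 * mk2 0 1 1 1 d1)
        * (mk2 u (u ^ 2 + u + 1) 1 (u + 1) d2 * mk2 u (u ^ 2 + u + 1) 1 (u + 1) d2))
      = prj K ((mk2 u (u ^ 2 + u + 1) 1 (u + 1) d2 * mk2 u (u ^ 2 + u + 1) 1 (u + 1) d2)
        * (mk2 0 1 1 1 d1 * mk2 0 1 1 1 d1)) := by
    simpa only [map_mul] using h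
  have h3 := pm_prj_eq_10 _ _ h'
  simp only [mul00, mul01, mul10, mul11, mk2_00, mk2_01, mk2_10, mk2_11] at h3
  have h4 : u * (u + 1) ^ 2 = 0 := by
    grind
  rcases mul_eq_zero.1 h4 with h5 | h5
  · exact hu0 h5
  · have h6 : u + 1 = 0 := pow_eq_zero_iff (by norm_num) |>.1 h5
    exact hu1 (by linear_combination h6 - h2)

theorem pm_sq [Fintype K] (hK : 3 ≤ Fintype.card K) :
    ∃ x y : P2 K, (x * x) * (y * y) ≠ (y * y) * (x * x) := by
  classical
  by_cases h2 : (2 : K) = 0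
  · obtain ⟨u, hu0, hu1⟩ : ∃ u : K, u ≠ 0 ∧ u ≠ 1 := by
      by_contra hcon
      push Not at hcon
      have hle : Fintype.card K ≤ Fintype.card Bool := by
        apply Fintype.card_le_of_injective (fun x : K => decide (x = 0))
        intro x y hxy
        simp only [decide_eq_decide] at hxy
        by_cases hx : x = 0
        · rw [hx]; exact (hxy.1 hx).symm
        · have hy : y ≠ 0 := fun hy => hx (hxy.2 hy)
          rw [hcon x hx, hcon y hy]
      rw [Fintype.card_bool] at hle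
      omega
    exact pm_sq_even h2 u hu0 hu1
  · exact pm_sq_odd h2

theorem pm_tr_sq (c : S2 K) : tr (c * c) = tr c ^ 2 - 2 := by
  have hd := det2 c
  unfold tr
  simp only [mul00, mul11]
  linear_combination (-2 : K) * hd

/-- elements of trace `≠ ± 2` do not have order dividing `p` in `PSL₂` -/
theorem pm_pow_ne (p : ℕ) [Fact p.Prime] [CharP K p] (c : S2 K) (hc : tr c ^ 2 ≠ 4) :
    (prj K c) ^ p ≠ 1 := by
  intro h
  have h1 : prj K (c ^ p) = 1 := by rw [map_pow]; exact h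
  have h2 : IsSc (c ^ p) := (prj_eq_one_iff _).1 h1
  have h3 : c ^ p * c ^ p = 1 := isSc_mul_self _ h2
  have h4 : (c * c) ^ p = 1 := by rw [(Commute.refl c).mul_pow]; exact h3
  have h5 : tr (c * c) = 2 := tr_of_pow_char p (c * c) h4
  rw [pm_tr_sq] at h5
  exact hc (by linear_combination h5)

theorem pm_tr_comm (t : K) : tr (uu 1 * ll t * (uu 1)⁻¹ * (ll t)⁻¹) = 2 + t ^ 2 := by
  rw [uu_inv, ll_inv]
  unfold tr
  simp only [mul00, mul01, mul10, mul11, uu_00, uu_01, uu_10, uu_11, ll_00, ll_01, ll_10, ll_11]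
  ring

/-- some commutator of `PSL₂(K)` does not have order dividing `p` -/
theorem pm_comm (p : ℕ) [Fact p.Prime] [CharP K p] :
    ∃ x y : P2 K, (x * y * x⁻¹ * y⁻¹) ^ p ≠ 1 := by
  by_cases h2 : (2 : K) = 0
  · refine ⟨prj K (uu 1), prj K (ll 1), ?_⟩
    rw [← map_inv, ← map_inv, ← map_mul, ← map_mul, ← map_mul]
    apply pm_pow_ne
    rw [pm_tr_comm]
    intro h
    have : (1 : K) = 0 := by linear_combination h - 2 * h2
    exact one_ne_zero this
  · refine ⟨prj K (uu 1), prj K (ll 2), ?_⟩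
    rw [← map_inv, ← map_inv, ← map_mul, ← map_mul, ← map_mul]
    apply pm_pow_ne
    rw [pm_tr_comm]
    intro h
    have h32 : (2 : K) ^ 5 = 0 := by linear_combination h
    exact h2 (pow_eq_zero_iff (by norm_num) |>.1 h32)

end Witness


section Main

variable {F : Type*} {K : Type*} [Field F] [Fintype F] [Field K] [Fintype K]

/-- `PSL₂(K)` is (isomorphic to) a maximal subgroup of `PSL₂(F)` when `|F| = |K|^r`, `r` prime,
`|K| ≥ 3`, and `r` odd if `|K|` is odd. -/
theorem psl_sub_coatom (q r : ℕ) (hK : Fintype.card K = q) (hF : Fintype.card F = q ^ r)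
    (hq3 : 3 ≤ q) (hr : r.Prime) (hodd : Odd q → r ≠ 2) :
    ∃ H : Subgroup (P2 F), IsCoatom H ∧ Nonempty (H ≃* P2 K) := by
  classical
  obtain ⟨φ⟩ := Cfsg.Agent.S0805.exists_hom (F := F) (K := K) r hr.one_le (by rw [hK, hF])
  obtain ⟨H, ⟨e⟩⟩ := Cfsg.Agent.S0805.exists_sub
    ((ProjGenLinGroup.map (n := Fin 2) φ).comp ProjectiveSpecialLinearGroup.toPGL)
    ProjectiveSpecialLinearGroup.toPGL
    ((Cfsg.Agent.S0805.pglmap_inj φ).comp ProjectiveSpecialLinearGroup.toPGL_injective)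
    ProjectiveSpecialLinearGroup.toPGL_injective (Cfsg.Agent.S0805.rangeA φ)
  obtain ⟨p, hpc⟩ := CharP.exists F
  obtain ⟨n, hpp, hn⟩ := FiniteField.card F p
  have : Fact p.Prime := ⟨hpp⟩
  have : CharP K p := RingHom.charP φ φ.injective p
  obtain ⟨a, -, ha⟩ := FiniteField.card K p
  have hqa : q = p ^ (a : ℕ) := by rw [← hK, ha]
  have hh : Nat.gcd 2 (q - 1) * Nat.card H = q * (q ^ 2 - 1) := by
    have := card_P2 (F := K)
    rw [hK] at this
    rw [Nat.card_congr e.toEquiv]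
    exact this
  have hg : Nat.gcd 2 (q ^ r - 1) * Nat.card (P2 F) = q ^ r * ((q ^ r) ^ 2 - 1) := by
    have := card_P2 (F := F)
    rw [hF] at this
    exact this
  have hlt : Nat.card H < Nat.card (P2 F) := pm_lt q r _ _ hq3 hr.two_le hh hg
  refine ⟨H, ⟨?_, ?_⟩, ⟨e⟩⟩
  · intro htop
    have : Nat.card H = Nat.card (P2 F) := by rw [htop]; exact Subgroup.card_top
    omega
  · intro L hL
    have h1 : Nat.card H ∣ Nat.card L := Subgroup.card_dvd_of_le hL.le
    have h2 : Nat.card H < Nat.card L := by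
      by_contra hcon
      exact hL.ne (Subgroup.eq_of_le_of_card_ge hL.le (not_lt.1 hcon))
    have h3 : Nat.card L ∣ Nat.card (P2 F) := Subgroup.card_subgroup_dvd_card L
    rcases dkm_cases p L with hsq | ⟨hpw, -⟩ | h12 | h24 | h60 | ⟨q', k, hq3', hdvd, hc, hk⟩
    · exfalso
      obtain ⟨x, y, hxy⟩ := pm_sq (K := K) (by rw [hK]; exact hq3)
      exact hxy (dkm_tr_sq H e (fun a ha b hb => hsq a (hL.le ha) b (hL.le hb)) x y)
    · exfalso
      obtain ⟨x, y, hxy⟩ := pm_comm (K := K) p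
      exact hxy (dkm_tr_pow H e p (fun a ha b hb => hpw a (hL.le ha) b (hL.le hb)) x y)
    · exact (pm_small q r _ _ _ hq3 hr hodd hh hg (Or.inl h12) h1 h2 h3).elim
    · exact (pm_small q r _ _ _ hq3 hr hodd hh hg (Or.inr (Or.inl h24)) h1 h2 h3).elim
    · exact (pm_small q r _ _ _ hq3 hr hodd hh hg (Or.inr (Or.inr h60)) h1 h2 h3).elim
    · rw [hF, hqa, ← pow_mul] at hdvd
      obtain ⟨b, -, rfl⟩ := (Nat.dvd_prime_pow hpp).1 hdvd
      have hodd' : p ≠ 2 → r ≠ 2 := by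
        intro hp2
        apply hodd
        rw [hqa]
        exact (hpp.odd_of_ne_two hp2).pow
      rw [hqa] at hh hg hq3
      have hq' : p ^ b = (p ^ (a : ℕ)) ^ r :=
        pm_arith p a r b k _ _ _ hpp a.pos hr hodd' hq3 hq3' hh hg hc hk h1 h2 h3
      have hq'' : p ^ b = Fintype.card F := by rw [hq', hF, hqa]
      rw [hq''] at hc hk
      exact dkm_top p L k hc hk

end Main

end Cfsg.Agent.Lib.Helper45.PslMax
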