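import Mathlib
import Cfsg.Agent.Lib.Helper52.SP8EBDefs

/-! SP8-EB piece COMM (helper45, for helper52 / S5823): `[R, R]` is scalar. -/

set_option autoImplicit false

namespace Cfsg.Agent.Lib.Helper52.SP8EB

open Matrix Cfsg.Geo Cfsg.Agent.Lib.Helper71.Asch
open scoped commutatorElement

variable {n : ℕ} {F : Type*} [Field F] [Fintype F]

/-- COMM. -/
theorem COMM (e : Fin n ≃ (Fin 3 → Fin 2)) (P : GL (Fin n) F) (hrm : HRmem e P) (hc : HQcomm F) :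
    ⁅Rsub e P, Rsub e P⁆ ≤ scalars (Fin n) F := by
  rw [Subgroup.commutator_le]
  intro x hx y hy
  obtain ⟨cs, hcs, hxe⟩ := hrm x hx
  obtain ⟨ds, hds, hye⟩ := hrm y hy
  have hε : ∀ i, ∃ ε : F, ε ≠ 0 ∧ cs i * ds i = ε • (ds i * cs i) := by
    intro i
    rcases hc (cs i) (ds i) (hcs i) (hds i) with h | h
    · exact ⟨1, one_ne_zero, by rw [one_smul]; exact h⟩
    · exact ⟨-1, neg_ne_zero.mpr one_ne_zero, by rw [neg_smul, one_smul]; exact h⟩
  choose ε hε0 hεe using hε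
  have hprod : (∏ i, ε i) ≠ 0 := Finset.prod_ne_zero_iff.mpr (fun i _ => hε0 i)
  have hxy : x.1 * y.1 = (∏ i, ε i) • (y.1 * x.1) := by
    rw [hxe, hye, tw_mul, tw_mul, pt_mul, pt_mul, ← tw_smul, ← pt_smul]
    congr 2
    funext i
    exact hεe i
  rw [mem_scalars_iff]
  refine ⟨Units.mk0 _ hprod, ?_⟩
  have h0 : ((⁅x, y⁆ : GL (Fin n) F) : Matrix (Fin n) (Fin n) F) =
      x.1 * y.1 * (x⁻¹ : GL (Fin n) F).1 * (y⁻¹ : GL (Fin n) F).1 := by
    rw [commutatorElement_def]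
    simp only [Units.val_mul]
  have h1 : y.1 * x.1 * (x⁻¹ : GL (Fin n) F).1 * (y⁻¹ : GL (Fin n) F).1 = 1 := by
    rw [← Units.val_mul, ← Units.val_mul, ← Units.val_mul]
    simp
  rw [h0, hxy, Matrix.smul_mul, Matrix.smul_mul, h1]
  rfl

end Cfsg.Agent.Lib.Helper52.SP8EB
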