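import Mathlib
import Cfsg.Agent.Lib.Helper52.SP8EBDefs

/-! SP8-EB piece MINC (helper45, for helper52 / S5823): a subgroup containing the three
quaternion factors contains `R`. -/

set_option autoImplicit false

namespace Cfsg.Agent.Lib.Helper52.SP8EB

open Matrix Cfsg.Geo Cfsg.Agent.Lib.Helper71.Asch

variable {n : ℕ} {F : Type*} [Field F] [Fintype F]

/-- MINC. -/
theorem MINC (e : Fin n ≃ (Fin 3 → Fin 2)) (P : GL (Fin n) F) (hglof : HGlof e P) (hinv : HQinv F)
    (L' : Subgroup (GL (Fin n) F)) (h : ∀ i, HasFactor e P L' i) : Rsub e P ≤ L' := by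
  unfold Rsub
  rw [Subgroup.closure_le]
  rintro g ⟨cs, hcs, hg⟩
  have key : ∀ i : Fin 3, ∃ gi : GL (Fin n) F, gi.1 = tw e P (iota i (cs i)) := by
    intro i
    obtain ⟨y, -, hy1, -⟩ := hinv (cs i) (hcs i)
    obtain ⟨gi, hgi, -⟩ := hglof
      (Function.update (fun _ => (1 : Matrix (Fin 2) (Fin 2) F)) i (cs i))
      (Function.update (fun _ => (1 : Matrix (Fin 2) (Fin 2) F)) i y) (by
        intro j
        by_cases hj : j = i
        · subst hj; simp [hy1]
        · simp [Function.update_of_ne hj])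
    exact ⟨gi, by rw [hgi, iota_eq_pt]⟩
  obtain ⟨g0, hg0⟩ := key 0
  obtain ⟨g1, hg1⟩ := key 1
  obtain ⟨g2, hg2⟩ := key 2
  have hmem : g0 * g1 * g2 ∈ L' :=
    L'.mul_mem (L'.mul_mem (h 0 (cs 0) (hcs 0) g0 hg0) (h 1 (cs 1) (hcs 1) g1 hg1))
      (h 2 (cs 2) (hcs 2) g2 hg2)
  have heq : g = g0 * g1 * g2 := by
    apply Units.ext
    rw [Units.val_mul, Units.val_mul, hg, hg0, hg1, hg2, tw_mul, tw_mul, iota_eq_pt, iota_eq_pt,
      iota_eq_pt, pt_mul, pt_mul]
    congr 2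
    funext i
    fin_cases i <;> simp [Function.update]
  rw [SetLike.mem_coe, heq]
  exact hmem

end Cfsg.Agent.Lib.Helper52.SP8EB
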